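import Cfsg.Agent.OrthBlock.Swap
import Cfsg.Agent.GeoLib.OmegaParabolic

/-!
Axes of singular centres; a centre inside a member with an axis outside it gives all of `Ω`.
-/

set_option autoImplicit false
set_option linter.unusedSectionVars false

open QuadraticMap

namespace CfsgLib.OrthBlock

open Matrix CfsgLib.GeoFull CfsgLib.Forms CfsgLib.GeoOrth

variable {ι : Type} [Fintype ι] [DecidableEq ι] {F : Type*} [Field F] [Finite F]
  {Q : QuadraticForm F (ι → F)} {t k : ℕ} {D : Fin t → Submodule F (ι → F)} {M : Subgroup (GL ι F)}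

/-- A subgroup of `Ω` over the stabiliser of an orthogonal decomposition in odd characteristic. -/
structure Setup (Q : QuadraticForm F (ι → F)) (D : Fin t → Submodule F (ι → F)) (k : ℕ)
    (M : Subgroup (GL ι F)) : Prop where
  hQ : (polarBilin Q).Nondegenerate
  h5 : 5 ≤ Fintype.card ι
  h2 : (2 : F) ≠ 0
  hD : Cfsg.Geo.IsOrthogonalMDecomposition ⇑Q k D
  hk : 3 ≤ k
  le_M : Cfsg.Geo.decompositionStabilizer D ⊓ Cfsg.Geo.omegaGL ⇑Q ≤ M
  M_le : M ≤ Cfsg.Geo.omegaGL ⇑Q

/-- All Siegel elements with centre `y` and axis in the line of `c` lie in `M`. -/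
def Axis (Q : QuadraticForm F (ι → F)) (M : Subgroup (GL ι F)) (y c : ι → F) : Prop :=
  polar Q y c = 0 ∧ ∀ μ : F, SiegelIn Q M y (μ • c)

theorem Axis.smul {y c : ι → F} (h : Axis Q M y c) (a : F) : Axis Q M y (a • c) :=
  ⟨by rw [polar_smul_right, h.1, smul_zero], fun μ => by rw [smul_smul]; exact h.2 _⟩

theorem Axis.of_smul {y c : ι → F} {a : F} (ha : a ≠ 0) (h : Axis Q M (a • y) c) : Axis Q M y c := by
  refine ⟨?_, fun μ => ?_⟩
  · have := h.1
    rw [polar_smul_left, smul_eq_mul] at this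
    exact (mul_eq_zero.1 this).resolve_left ha
  · have := siegelIn_smul (h.2 (μ / a))
    rwa [smul_smul, mul_div_cancel₀ _ ha] at this

variable (S : Setup Q D k M)
include S

theorem Setup.nondeg (a : Fin t) : Cfsg.Geo.IsNondegenerateOn (polar ⇑Q) (D a) := S.hD.decomp.nondegenerate a

theorem Setup.rank (a : Fin t) : 3 ≤ Module.finrank F (D a) := by
  rw [S.hD.decomp.decomp.finrank_eq]; exact S.hk

theorem Setup.orth {a b : Fin t} (h : a ≠ b) {x y : ι → F} (hx : x ∈ D a) (hy : y ∈ D b) : polar Q x y = 0 :=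
  S.hD.decomp.orthogonal a b h x hx y hy

theorem Setup.axis_add {y c c' : ι → F} (hy : Q y = 0) (h : Axis Q M y c) (h' : Axis Q M y c') :
    Axis Q M y (c + c') :=
  ⟨by rw [polar_add_right, h.1, h'.1, add_zero], fun μ => by
    rw [smul_add]; exact siegelIn_add S.hQ S.h5 hy (h.smul μ).1 (h'.smul μ).1 (h.2 μ) (h'.2 μ)⟩

theorem Setup.axis_sub {y c c' : ι → F} (hy : Q y = 0) (h : Axis Q M y c) (h' : Axis Q M y c') :
    Axis Q M y (c - c') := by
  rw [sub_eq_add_neg, ← neg_one_smul F c']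
  exact S.axis_add hy h (h'.smul _)

theorem Setup.axis_map {g : GL ι F} (hg : g ∈ M) {y c : ι → F} (h : Axis Q M y c) :
    Axis Q M ((g : Matrix ι ι F) *ᵥ y) ((g : Matrix ι ι F) *ᵥ c) :=
  ⟨by rw [(polar_omega (S.M_le hg)).2, h.1], fun μ => by
    rw [← Matrix.mulVec_smul]; exact siegelIn_map hg (S.M_le hg) (h.2 μ)⟩

/-- The element of `M` attached to an axis. -/
theorem Setup.exists_elt {y c : ι → F} (hy : Q y = 0) (h : Axis Q M y c) :
    ∃ g ∈ M, IsSiegel Q y c g := by
  obtain ⟨g, -, hg⟩ := exists_isSiegel S.hQ S.h5 hy h.1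
  exact ⟨g, (by simpa using h.2 1 : SiegelIn Q M y c) g hg, hg⟩

theorem Setup.axis_member {a : Fin t} {e b : ι → F} (he : e ∈ D a) (hb : b ∈ D a) (hee : Q e = 0)
    (heb : polar Q e b = 0) : Axis Q M e b := by
  refine ⟨heb, fun μ g hg => S.le_M ⟨CfsgLib.GeoDecomp.mem_stabilizer S.hD.decomp.decomp fun i => ⟨i, fun x hx => ?_⟩, ?_⟩⟩
  · rw [hg]
    rcases eq_or_ne i a with rfl | hia
    · exact sub_mem (add_mem hx ((D i).smul_mem _ he)) ((D i).smul_mem _ ((D i).smul_mem _ hb))
    · rw [polar_comm Q (μ • b) x, polar_comm Q e x, S.orth hia hx ((D a).smul_mem μ hb), S.orth hia hx he]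
      simpa using hx
  · obtain ⟨g', hg', hgv⟩ := exists_isSiegel S.hQ S.h5 (a := μ • b) hee
      (by rw [polar_smul_right, heb, smul_zero])
    rwa [show g = g' from gl_ext fun x => by rw [hg, hgv]]

/-- Outside of one member some component does not vanish. -/
theorem Setup.exists_other {y : ι → F} (j : Fin t) (hy : y ∉ D j) : ∃ l, l ≠ j ∧ ¬ Orth Q (D l) y := by
  obtain ⟨π, hπmem, hπsum, hπid, hπ0⟩ := CfsgLib.GeoDecomp.exists_proj S.hD.decomp.decomp
  by_contra hall
  push Not at hall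
  have h0 : ∀ l, l ≠ j → π l y = 0 := fun l hl => by
    by_contra hne
    obtain ⟨x, hx, hpx⟩ := exists_polar_one (S.nondeg l) (hπmem l y) hne
    have := hall l hl x hx
    rw [← hπsum y, ← polarBilin_apply_apply, map_sum, LinearMap.sum_apply] at this
    simp only [polarBilin_apply_apply] at this
    rw [Finset.sum_eq_single l (fun m _ hm => S.orth hm (hπmem m y) hx) (fun h => absurd (Finset.mem_univ l) h),
      hpx] at this
    exact one_ne_zero this
  refine hy ?_
  rw [← hπsum y, Finset.sum_eq_single j (fun m _ hm => h0 m hm) (fun h => absurd (Finset.mem_univ j) h)]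
  exact hπmem j y

/-- An axis outside the member of its centre spreads over that member. -/
theorem Setup.spread {j l : Fin t} (hlj : l ≠ j) {e v : ι → F} (he : e ∈ D j) (hee : Q e = 0)
    (hv : Axis Q M e v) (hlv : ¬ Orth Q (D l) v) : ∀ x ∈ D l, Axis Q M e x := by
  have key : ∀ d ∈ D l, d ≠ 0 → Q d = 0 → ∀ v, Axis Q M e v → polar Q d v ≠ 0 →
      ∀ b ∈ D l, polar Q d b = 0 → Axis Q M e b := by
    intro d hd hd0 hdd v hv hdv b hb hdb
    have hmove : ∀ b ∈ D l, polar Q d b = 0 →
        Axis Q M e (v + (polar Q b v - Q b * polar Q d v) • d - polar Q d v • b) := by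
      intro b hb hdb
      obtain ⟨g, hg, hgv⟩ := S.exists_elt hdd (S.axis_member hd hb hdd hdb)
      have h := S.axis_map hg hv
      have e1 : (g : Matrix ι ι F) *ᵥ e = e := by
        rw [hgv, S.orth hlj hb he, S.orth hlj hd he]; simp
      rwa [e1, hgv] at h
    obtain ⟨b₀, hb₀, hdb₀, hb₀0⟩ := exists_aniso_perp S.h2 (S.nondeg l) (S.rank l) hd hd0 hdd
    have hpm := S.axis_add hee (S.axis_sub hee (hmove b₀ hb₀ hdb₀) hv)
      (S.axis_sub hee (hmove (-b₀) (neg_mem hb₀) (by rw [polar_neg_right, hdb₀, neg_zero])) hv)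
    rw [QuadraticMap.map_neg, polar_neg_left] at hpm
    have hdA : Axis Q M e d := by
      have h0 : -(2 * (Q b₀ * polar Q d v)) ≠ 0 := neg_ne_zero.2 (mul_ne_zero S.h2 (mul_ne_zero hb₀0 hdv))
      have := hpm.smul (-(2 * (Q b₀ * polar Q d v)))⁻¹
      rwa [show v + (polar Q b₀ v - Q b₀ * polar Q d v) • d - polar Q d v • b₀ - v +
        (v + (-polar Q b₀ v - Q b₀ * polar Q d v) • d - polar Q d v • -b₀ - v) =
          (-(2 * (Q b₀ * polar Q d v))) • d by module, smul_smul, inv_mul_cancel₀ h0, one_smul] at this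
    have h1 := (S.axis_sub hee (S.axis_sub hee (hmove b hb hdb) hv)
      (hdA.smul (polar Q b v - Q b * polar Q d v))).smul (-(polar Q d v))⁻¹
    convert h1 using 1
    match_scalars <;> field_simp <;> ring
  obtain ⟨d, hd, hd0, hdd, hdv⟩ := exists_singular_seen (S.nondeg l) (S.rank l) hlv
  obtain ⟨f, hf, hff, hdf⟩ := exists_hyp_partner (S.nondeg l) hd hd0 hdd
  have hf0 : f ≠ 0 := fun h => by rw [h, polar_zero_right] at hdf; exact zero_ne_one hdf
  have hdd' : polar Q d d = 0 := by rw [polar_self', hdd, mul_zero]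
  have hdA := key d hd hd0 hdd v hv hdv d hd hdd'
  have hfA := key f hf hf0 hff d hdA (by rw [polar_comm, hdf]; exact one_ne_zero) f hf
    (by rw [polar_self', hff, mul_zero])
  intro x hx
  rw [show x = (x - polar Q d x • f) + polar Q d x • f by abel]
  refine S.axis_add hee (key d hd hd0 hdd v hv hdv _ (sub_mem hx ((D l).smul_mem _ hf)) ?_) (hfA.smul _)
  rw [polar_sub_right, polar_smul_right, hdf, smul_eq_mul, mul_one, sub_self]

/-- A centre in a member with an axis leaving it gives all of `Ω`. -/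
theorem Setup.omega_le_of_member_centre {j l : Fin t} (hlj : l ≠ j) {e v : ι → F} (he : e ∈ D j) (he0 : e ≠ 0)
    (hee : Q e = 0) (hv : Axis Q M e v) (hlv : ¬ Orth Q (D l) v) : Cfsg.Geo.omegaGL ⇑Q ≤ M := by
  obtain ⟨π, hπmem, hπsum, hπid, hπ0⟩ := CfsgLib.GeoDecomp.exists_proj S.hD.decomp.decomp
  have hl := S.spread hlj he hee hv hlv
  have hall : ∀ r, r ≠ j → ∀ x ∈ D r, Axis Q M e x := by
    intro r hrj x hx
    rcases eq_or_ne r l with rfl | hrl
    · exact hl x hx
    obtain ⟨g, hg, hgj, hgr⟩ := exists_member_swap S.hQ S.h2 S.hD S.hk hrl.symm hlj.symm hrj.symm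
    obtain ⟨z, hz, rfl⟩ := hgr x hx
    have := S.axis_map (S.le_M hg) (hl z hz)
    rwa [hgj e he] at this
  obtain ⟨f, hf, hff, hef⟩ := exists_hyp_partner (S.nondeg j) he he0 hee
  have hf0 : f ≠ 0 := fun h => by rw [h, polar_zero_right] at hef; exact zero_ne_one hef
  obtain ⟨b, hb, hfb, hb0⟩ := exists_aniso_perp S.h2 (S.nondeg j) (S.rank j) hf hf0 hff
  have hcen : FullCen Q M e := by
    intro a ha
    suffices Axis Q M e a by simpa using this.2 1
    have hsum : ∀ s : Finset (Fin t), j ∉ s → Axis Q M e (∑ r ∈ s, π r a) := by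
      intro s hs
      induction s using Finset.induction_on with
      | empty => exact ⟨by simp, fun μ => by simpa using siegelIn_zero_right e⟩
      | insert r s hr ih =>
        rw [Finset.sum_insert hr]
        rw [Finset.mem_insert, not_or] at hs
        exact S.axis_add hee (hall r (Ne.symm hs.1) _ (hπmem r a)) (ih hs.2)
    have hja : polar Q e (π j a) = 0 := by
      rw [← ha]
      conv_rhs => rw [← hπsum a]
      rw [← polarBilin_apply_apply, ← polarBilin_apply_apply, map_sum]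
      exact (Finset.sum_eq_single j (fun m _ hm => S.orth hm.symm he (hπmem m a))
        (fun h => absurd (Finset.mem_univ j) h)).symm
    rw [← hπsum a, ← Finset.add_sum_erase _ _ (Finset.mem_univ j)]
    exact S.axis_add hee (S.axis_member he (hπmem j a) hee hja) (hsum _ (Finset.notMem_erase j _))
  exact omega_le_of_fullCen_siegel S.hQ S.h5 hee hcen hff (by rw [hef]; exact one_ne_zero) hfb hb0
    (by simpa using (S.axis_member hf hb hff hfb).2 1)

/-- A root at `y + α e` in the direction of `y` gives an axis at `e`. -/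
theorem Setup.axis_of_root {y e : ι → F} {α : F} (hy : Q y = 0) (hey : polar Q e y = 0) (hα : α ≠ 0)
    (h : Axis Q M (y + α • e) y) : Axis Q M e y := by
  refine Axis.of_smul hα ⟨by rw [polar_smul_left, hey, smul_zero], fun μ g hg => h.2 μ g fun x => ?_⟩
  rw [hg, QuadraticMap.map_smul, hy, polar_smul_left, polar_smul_left, polar_add_left, polar_smul_left]
  simp only [smul_eq_mul]
  match_scalars <;> ring

/-- A commutation in a totally singular line. -/
theorem Setup.omega_le_of_commute {j : Fin t} {y c e : ι → F} (hy : Q y = 0) (hyj : y ∉ D j)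
    (hc : Axis Q M y c) (hc0 : Q c ≠ 0) (he : e ∈ D j) (he0 : e ≠ 0) (hee : Q e = 0) (hey : polar Q e y = 0)
    (hec : polar Q e c = 0) {h : GL ι F} (hh : h ∈ M) {α r : F} (hα : α ≠ 0)
    (hhy : (h : Matrix ι ι F) *ᵥ y = y + α • e) (hhc : (h : Matrix ι ι F) *ᵥ c = c + r • e) :
    Cfsg.Geo.omegaGL ⇑Q ≤ M := by
  obtain ⟨T, hT, hTv⟩ := S.exists_elt hy hc
  have hh' := S.axis_map hh hc
  rw [hhy, hhc] at hh'
  have hy' : Q (y + α • e) = 0 := by rw [map_add_smul, hy, hee, polar_comm, hey]; ring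
  have e1 : (T : Matrix ι ι F) *ᵥ (y + α • e) = y + α • e := by
    rw [hTv]
    simp [polar_add_right, polar_smul_right, polar_comm Q c y, polar_comm Q c e, polar_comm Q y e, hc.1, hec, hey,
      polar_self', hy]
  have e2 : (T : Matrix ι ι F) *ᵥ (c + r • e) = c + r • e + (2 * Q c) • y := by
    rw [hTv]
    simp [polar_add_right, polar_smul_right, polar_comm Q c e, polar_comm Q y e, hc.1, hec, hey, polar_self']
  have h1 := S.axis_map hT hh'
  rw [e1, e2] at h1
  have h2 := (S.axis_sub hy' h1 hh').smul (2 * Q c)⁻¹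
  rw [add_sub_cancel_left, smul_smul, inv_mul_cancel₀ (mul_ne_zero S.h2 hc0), one_smul] at h2
  obtain ⟨l, hlj, hl⟩ := S.exists_other j hyj
  exact S.omega_le_of_member_centre hlj he he0 hee (S.axis_of_root hy hey hα h2) hl

end CfsgLib.OrthBlock
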