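import Cfsg.Agent.OrthBlock.Good

/-!
A mixed centre none of whose components is orthogonal to a singular vector of its member: a two-member move
and a translation inside a totally singular line give one that is.
-/

set_option autoImplicit false
set_option linter.unusedSectionVars false

open QuadraticMap

namespace CfsgLib.OrthBlock

open Matrix CfsgLib.GeoFull CfsgLib.Forms CfsgLib.GeoOrth

variable {ι : Type} [Fintype ι] [DecidableEq ι] {F : Type*} [Field F] [Finite F]
  {Q : QuadraticForm F (ι → F)} {t k : ℕ} {D : Fin t → Submodule F (ι → F)} {M : Subgroup (GL ι F)}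

variable (S : Setup Q D k M)
include S

/-- An element of the stabiliser moving `y` by `Δ` inside one member. -/
theorem Setup.exists_step {i : Fin t} {v y Δ : ι → F} (hv : v ∈ D i) (hv0 : Q v ≠ 0) (hΔ : Δ ∈ D i)
    (hQΔ : Q Δ ≠ 0) (hvΔ : polar Q v Δ = -Q Δ) (hcomp : ∀ x ∈ D i, polar Q y x = polar Q v x) :
    ∃ g ∈ M, (g : Matrix ι ι F) *ᵥ y = y + Δ ∧
      ∀ l, l ≠ i → ∀ x ∈ D l, (g : Matrix ι ι F) *ᵥ x = x := by
  obtain ⟨u, hu, hvu, hQu⟩ := exists_value_perp S.h2 (S.nondeg i) (S.rank i) hv hv0 (Q Δ)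
  obtain ⟨g, hg, hgv⟩ := exists_pair S.hQ hQΔ hQu
  have hfix : ∀ l, l ≠ i → ∀ x ∈ D l, (g : Matrix ι ι F) *ᵥ x = x := fun l hl x hx => by
    rw [hgv, refl_apply (u := u), S.orth hl hx hu, refl_apply]
    simp [S.orth hl hx hΔ]
  refine ⟨g, S.le_M ⟨CfsgLib.GeoDecomp.mem_stabilizer S.hD.decomp.decomp fun l => ⟨l, fun x hx => ?_⟩, hg⟩, ?_, hfix⟩
  · rcases eq_or_ne l i with rfl | hl
    · rw [hgv, refl_apply (u := u), refl_apply]
      exact sub_mem (sub_mem hx ((D l).smul_mem _ hu)) ((D l).smul_mem _ hΔ)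
    · rw [hfix l hl x hx]; exact hx
  · rw [hgv, refl_apply (u := u), hcomp u hu, hvu, refl_apply]
    simp [hcomp Δ hΔ, hvΔ, hQΔ]

theorem Setup.omega_le_of_bad (hF : 5 ≤ Nat.card F) {y : ι → F} (hy : IsMixed Q D M y)
    (hbad : ∀ j, ¬ Orth Q (D j) y → ∀ e ∈ D j, Q e = 0 → polar Q e y = 0 → e = 0) :
    Cfsg.Geo.omegaGL ⇑Q ≤ M := by
  classical
  obtain ⟨π, hπmem, hπsum, hπid, hπ0⟩ := CfsgLib.GeoDecomp.exists_proj S.hD.decomp.decomp
  have hys := S.mixed_singular hy
  have hcomp : ∀ m, ∀ x ∈ D m, polar Q y x = polar Q (π m y) x := by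
    intro m x hx
    conv_lhs => rw [← hπsum y]
    rw [← polarBilin_apply_apply, map_sum, LinearMap.sum_apply]
    simp only [polarBilin_apply_apply]
    rw [Finset.sum_eq_single m (fun a _ ha => S.orth ha (hπmem a y) hx) (fun h => absurd (Finset.mem_univ m) h)]
  have hval : ∀ m, ¬ Orth Q (D m) y → Q (π m y) ≠ 0 := by
    intro m hm h0
    have := hbad m hm (π m y) (hπmem m y) h0
      (by rw [polar_comm, hcomp m _ (hπmem m y), polar_self', h0, mul_zero])
    exact hm fun x hx => by rw [hcomp m x hx, this, polar_zero_left]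
  obtain ⟨c, hc, hc0⟩ := S.exists_axis_aniso hy
  -- the axis stays in the support
  by_cases hsup : ∃ m, Orth Q (D m) y ∧ ¬ Orth Q (D m) c
  · obtain ⟨m, hmy, hmc⟩ := hsup
    obtain ⟨e, he, he0, hee, hec⟩ := exists_singular_seen (S.nondeg m) (S.rank m) hmc
    obtain ⟨b, hb, heb, hb0⟩ := exists_aniso_perp S.h2 (S.nondeg m) (S.rank m) he he0 hee
    have hmove : ∀ b ∈ D m, polar Q e b = 0 →
        Axis Q M y (c + (polar Q b c - Q b * polar Q e c) • e - polar Q e c • b) := by
      intro b hb heb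
      obtain ⟨g, hg, hgv⟩ := S.exists_elt hee (S.axis_member he hb hee heb)
      have h := S.axis_map hg hc
      have e1 : (g : Matrix ι ι F) *ᵥ y = y := by
        rw [hgv, polar_comm Q b y, hmy b hb, polar_comm Q e y, hmy e he]; simp
      rwa [e1, hgv] at h
    have hpm := S.axis_add hys (S.axis_sub hys (hmove b hb heb) hc)
      (S.axis_sub hys (hmove (-b) (neg_mem hb) (by rw [polar_neg_right, heb, neg_zero])) hc)
    rw [QuadraticMap.map_neg, polar_neg_left, show c + (polar Q b c - Q b * polar Q e c) • e - polar Q e c • b - c +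
      (c + (-polar Q b c - Q b * polar Q e c) • e - polar Q e c • -b - c) =
        (-(2 * (Q b * polar Q e c))) • e by module] at hpm
    have hye : Axis Q M y e := by
      have := hpm.smul (-(2 * (Q b * polar Q e c)))⁻¹
      rwa [smul_smul, inv_mul_cancel₀ (neg_ne_zero.2 (mul_ne_zero S.h2 (mul_ne_zero hb0 hec))), one_smul] at this
    have hey : Axis Q M e y := by
      refine ⟨by rw [polar_comm, hye.1], fun μ g hg => hye.2 (-μ) g fun x => ?_⟩
      rw [hg, QuadraticMap.map_smul, QuadraticMap.map_smul, hys, hee, polar_smul_left, polar_smul_left]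
      simp only [smul_eq_mul]
      match_scalars <;> ring
    obtain ⟨l, hlm, hl⟩ := S.exists_other m (hy.1 m)
    exact S.omega_le_of_member_centre hlm he he0 hee hey hl
  push Not at hsup
  obtain ⟨μ, hμ, hμ1⟩ := exists_sq_ne_one hF
  -- the move inside one member is by a non-singular vector
  have hfirst : ∀ i, ¬ Orth Q (D i) y → ∀ e b, e ∈ D i → e ≠ 0 → Q e = 0 → b ∈ D i → Q b ≠ 0 → polar Q e b = 0 →
      polar Q (π i y) b = 0 → ∀ w : F, w ≠ 0 → 4 * Q (π i y) - w * w / Q b ≠ 0 := by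
    intro i hi e b he he0 hee hb hb0 heb hvb w hw h0
    have hβ : polar Q e (π i y) ≠ 0 := fun h => he0 (hbad i hi e he hee
      (by rw [polar_comm, hcomp i e he, polar_comm, h]))
    obtain ⟨z, hzdef⟩ : ∃ z, z = (w / Q b) • b + (w * w / (Q b * polar Q e (π i y))) • e := ⟨_, rfl⟩
    have hz : z ∈ D i := hzdef ▸ add_mem ((D i).smul_mem _ hb) ((D i).smul_mem _ he)
    have hQz : Q z = w * w / Q b := by
      rw [hzdef, map_add_smul, QuadraticMap.map_smul, polar_smul_left, polar_comm Q b e, heb, hee, smul_eq_mul]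
      field_simp; ring
    have hvz : polar Q (π i y) z = w * w / Q b := by
      rw [hzdef, polar_add_right, polar_smul_right, polar_smul_right, hvb, polar_comm Q (π i y) e]
      simp only [smul_eq_mul]; field_simp; ring
    have h1 := hbad i hi (z - (2 : F) • π i y) (sub_mem hz ((D i).smul_mem _ (hπmem i y)))
      (by
        rw [CfsgLib.Forms.map_sub', QuadraticMap.map_smul, polar_smul_right, polar_comm Q z (π i y), hQz, hvz]
        simp only [smul_eq_mul]; linear_combination h0)
      (by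
        rw [polar_comm, hcomp i _ (sub_mem hz ((D i).smul_mem _ (hπmem i y))), polar_sub_right, polar_smul_right,
          polar_self', hvz]
        simp only [smul_eq_mul]; linear_combination -h0)
    have h2 := congrArg (polar Q b) h1
    rw [hzdef, polar_sub_right, polar_add_right, polar_smul_right, polar_smul_right, polar_smul_right, polar_self',
      polar_comm Q b e, heb, polar_comm Q b (π i y), hvb, polar_zero_right] at h2
    simp only [smul_eq_mul, mul_zero, add_zero, sub_zero] at h2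
    exact mul_ne_zero (div_ne_zero hw hb0) (mul_ne_zero S.h2 hb0) h2
  -- the two-member move
  have core : ∀ i l, i ≠ l → ¬ Orth Q (D i) y → ¬ Orth Q (D l) y → ∀ e b, e ∈ D i → e ≠ 0 → Q e = 0 → b ∈ D i →
      Q b ≠ 0 → polar Q e b = 0 → polar Q (π i y) b = 0 → ∀ w : F, w ≠ 0 →
      ∀ u ∈ D l, polar Q (π l y) u = 0 →
      ∀ q, q = 4 * Q (π i y) - w * w / Q b → Q u = -q - (q / (2 * Q (π l y))) * (q / (2 * Q (π l y))) * Q (π l y) →
      polar Q c ((w / Q b) • b + (w * w / (Q b * polar Q e (π i y))) • e - (2 : F) • π i y +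
        ((q / (2 * Q (π l y))) • π l y + u)) ≠ 0 →
      Cfsg.Geo.omegaGL ⇑Q ≤ M := by
    intro i l hil hi hl e b he he0 hee hb hb0 heb hvb w hw u hu hvu q hq hQu hne
    set v := π i y
    set v' := π l y
    have hv : v ∈ D i := hπmem i y
    have hv' : v' ∈ D l := hπmem l y
    have ha : Q v ≠ 0 := hval i hi
    have ha' : Q v' ≠ 0 := hval l hl
    have hβ : polar Q e v ≠ 0 := fun h => he0 (hbad i hi e he hee (by rw [polar_comm, hcomp i e he, polar_comm, h]))
    obtain ⟨z, hzdef⟩ : ∃ z, z = (w / Q b) • b + (w * w / (Q b * polar Q e v)) • e := ⟨_, rfl⟩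
    rw [← hzdef] at hne
    have hz : z ∈ D i := hzdef ▸ add_mem ((D i).smul_mem _ hb) ((D i).smul_mem _ he)
    have hQz : Q z = w * w / Q b := by
      rw [hzdef, map_add_smul, QuadraticMap.map_smul, polar_smul_left, polar_comm Q b e, heb, hee, smul_eq_mul]
      field_simp; ring
    have hvz : polar Q v z = w * w / Q b := by
      rw [hzdef, polar_add_right, polar_smul_right, polar_smul_right, hvb, polar_comm Q v e]
      simp only [smul_eq_mul]; field_simp; ring
    have hez : polar Q e z = 0 := by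
      rw [hzdef, polar_add_right, polar_smul_right, polar_smul_right, heb, polar_self', hee]; simp
    obtain ⟨Δ, hΔdef⟩ : ∃ Δ, Δ = z - (2 : F) • v := ⟨_, rfl⟩
    have hΔ : Δ ∈ D i := hΔdef ▸ sub_mem hz ((D i).smul_mem _ hv)
    have hQΔ : Q Δ = q := by
      rw [hΔdef, CfsgLib.Forms.map_sub', QuadraticMap.map_smul, polar_smul_right, polar_comm Q z v, hQz, hvz, hq]
      simp only [smul_eq_mul]; ring
    have hvΔ : polar Q v Δ = -q := by
      rw [hΔdef, polar_sub_right, polar_smul_right, polar_self', hvz, hq]; simp only [smul_eq_mul]; ring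
    have hq0 : q ≠ 0 := hq ▸ hfirst i hi e b he he0 hee hb hb0 heb hvb w hw
    obtain ⟨Δ', hΔ'def⟩ : ∃ Δ', Δ' = (q / (2 * Q v')) • v' + u := ⟨_, rfl⟩
    rw [← hΔdef, ← hΔ'def] at hne
    have hΔ' : Δ' ∈ D l := hΔ'def ▸ add_mem ((D l).smul_mem _ hv') hu
    have hQΔ' : Q Δ' = -q := by
      rw [hΔ'def, QuadraticMap.map_add (⇑Q), QuadraticMap.map_smul, polar_smul_left, hvu, hQu]
      simp only [smul_eq_mul]; ring
    have h20 : (2 : F) ≠ 0 := S.h2
    have hvΔ' : polar Q v' Δ' = q := by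
      rw [hΔ'def, polar_add_right, polar_smul_right, polar_self', hvu, smul_eq_mul]; field_simp; ring
    obtain ⟨g₁, hg₁, hg₁y, -⟩ := S.exists_step (y := y) hv ha hΔ (by rw [hQΔ]; exact hq0) (by rw [hvΔ, hQΔ]) (hcomp i)
    obtain ⟨g₂, hg₂, hg₂y, -⟩ := S.exists_step (y := y + Δ) hv' ha' hΔ' (by rw [hQΔ']; exact neg_ne_zero.2 hq0)
      (by rw [hvΔ', hQΔ', neg_neg]) (fun x hx => by
        rw [polar_add_left, S.orth hil hΔ hx, add_zero, hcomp l x hx])
    obtain ⟨y', hy'def⟩ : ∃ y', y' = y + Δ + Δ' := ⟨_, rfl⟩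
    have hyy' : polar Q y y' = 0 := by
      rw [hy'def, polar_add_right, polar_add_right, polar_self', hys, hcomp i Δ hΔ, hcomp l Δ' hΔ', hvΔ, hvΔ']
      ring
    set ζ := polar Q c y' with hζ
    have hζ0 : ζ ≠ 0 := by
      rw [hζ, hy'def, polar_add_right, polar_add_right, polar_comm Q c y, hc.1, zero_add, ← polar_add_right]
      exact hne
    obtain ⟨T, hT, hTv⟩ := S.exists_elt hys (hc.smul ζ⁻¹)
    have hTy : (T : Matrix ι ι F) *ᵥ y' = y' + y := by
      rw [hTv, hyy', polar_smul_left, ← hζ, smul_eq_mul, inv_mul_cancel₀ hζ0]; simp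
    obtain ⟨-, g, hg, a, e₀, he₀, he₀0, hee₀, hge⟩ := id hy
    have hnew : (((T * g₂ * g₁ * g : GL ι F)) : Matrix ι ι F) *ᵥ e₀ = y' + y := by
      simp only [Units.val_mul, ← Matrix.mulVec_mulVec]
      rw [hge, hg₁y, hg₂y, ← hy'def, hTy]
    have hzc : ∀ x ∈ D i, polar Q (y' + y) x = polar Q z x := by
      intro x hx
      rw [hy'def, hΔdef, polar_add_left, polar_add_left, polar_add_left, S.orth hil.symm hΔ' hx, hcomp i x hx,
        polar_sub_left, polar_smul_left, smul_eq_mul]
      ring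
    have hzv : polar Q (y' + y) z ≠ 0 := by
      rw [hzc z hz, polar_self', hQz]
      exact mul_ne_zero S.h2 (div_ne_zero (mul_ne_zero hw hw) hb0)
    have hmix : IsMixed Q D M (y' + y) := by
      refine ⟨fun m hm => ?_, _, mul_mem (mul_mem (mul_mem hT hg₂) hg₁) hg, a, e₀, he₀, he₀0, hee₀, hnew⟩
      rcases eq_or_ne m i with rfl | hmi
      · have h0 : y' + y - z = 0 := by
          by_contra hne0
          obtain ⟨x, hx, hx1⟩ := exists_polar_one (S.nondeg m) (sub_mem hm hz) hne0
          rw [polar_sub_left, hzc x hx, sub_self] at hx1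
          exact zero_ne_one hx1
        have hs : Q (y' + y) = 0 := by
          rw [← hnew, (polar_omega (S.M_le (mul_mem (mul_mem (mul_mem hT hg₂) hg₁) hg))).1, hee₀]
        rw [sub_eq_zero.1 h0, hQz] at hs
        exact div_ne_zero (mul_ne_zero hw hw) hb0 hs
      · exact hzv (S.orth hmi hm hz)
    exact S.omega_le_of_good (Or.inr hF) hmix he he0 hee
      (by rw [polar_comm, hzc e he, polar_comm, hez]) hz hez hzv
  have hvec : ∀ i, ¬ Orth Q (D i) y → ∃ e b, e ∈ D i ∧ e ≠ 0 ∧ Q e = 0 ∧ b ∈ D i ∧ Q b ≠ 0 ∧ polar Q e b = 0 ∧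
      polar Q (π i y) b = 0 := by
    intro i hi
    obtain ⟨e, he, he0, hee, hev⟩ := exists_singular_seen (S.nondeg i) (S.rank i) hi
    obtain ⟨b, hb, heb, hb0⟩ := exists_aniso_perp S.h2 (S.nondeg i) (S.rank i) he he0 hee
    have hev' : polar Q (π i y) e ≠ 0 := by rwa [← hcomp i e he, polar_comm]
    refine ⟨e, b + (-(polar Q (π i y) b / polar Q (π i y) e)) • e, he, he0, hee,
      add_mem hb ((D i).smul_mem _ he), ?_, ?_, ?_⟩
    · rw [map_add_smul, hee, polar_comm Q b e, heb, mul_zero, mul_zero, add_zero, add_zero]; exact hb0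
    · rw [polar_add_right, polar_smul_right, polar_self', hee, heb]; simp
    · rw [polar_add_right, polar_smul_right, smul_eq_mul]; field_simp; ring
  by_cases hprop : ∀ m, ¬ Orth Q (D m) y → ∀ x ∈ D m, polar Q (π m y) x = 0 → polar Q c x = 0
  · -- proportional components
    let ρ : Fin t → F := fun m => polar Q c (π m y) / (2 * Q (π m y))
    have hrho : ∀ m, ¬ Orth Q (D m) y → ∀ x ∈ D m, polar Q c x = ρ m * polar Q y x := by
      intro m hm x hx
      have ha := hval m hm
      have h20 : (2 : F) ≠ 0 := S.h2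
      have h0 := hprop m hm (x - (polar Q (π m y) x / (2 * Q (π m y))) • π m y)
        (sub_mem hx ((D m).smul_mem _ (hπmem m y))) (by
          rw [polar_sub_right, polar_smul_right, polar_self', smul_eq_mul]; field_simp; ring)
      rw [polar_sub_right, polar_smul_right, smul_eq_mul, sub_eq_zero] at h0
      rw [h0, hcomp m x hx]
      show _ = polar Q c (π m y) / (2 * Q (π m y)) * _
      ring
    obtain ⟨i, hi⟩ : ∃ i, ¬ Orth Q (D i) y := by
      have ha : ∃ a : Fin t, True := ⟨⟨0, by have := S.hD.decomp.decomp.two_le; omega⟩, trivial⟩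
      obtain ⟨a, -⟩ := ha
      obtain ⟨l, -, hl⟩ := S.exists_other a (hy.1 a)
      exact ⟨l, hl⟩
    obtain ⟨l, hl, hρ⟩ : ∃ l, ¬ Orth Q (D l) y ∧ ρ l ≠ ρ i := by
      by_contra hall
      push Not at hall
      have hzero : ∀ m, ∀ x ∈ D m, polar Q (c - ρ i • y) x = 0 := by
        intro m x hx
        rw [polar_sub_left, polar_smul_left, smul_eq_mul]
        by_cases hm : Orth Q (D m) y
        · rw [hsup m hm x hx, hm x hx, mul_zero, sub_zero]
        · rw [hrho m hm x hx, hall m hm, sub_self]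
      have : c - ρ i • y = 0 := polar_ext S.hQ fun x => by
        rw [← hπsum x, ← polarBilin_apply_apply, map_sum]
        exact Finset.sum_eq_zero fun m _ => hzero m _ (hπmem m x)
      rw [sub_eq_zero] at this
      exact hc0 (by rw [this, QuadraticMap.map_smul, hys, smul_zero])
    have hil : i ≠ l := fun h => hρ (h ▸ rfl)
    obtain ⟨e, b, he, he0, hee, hb, hb0, heb, hvb⟩ := hvec i hi
    set q := 4 * Q (π i y) - (1 : F) * 1 / Q b with hq
    obtain ⟨u, hu, hvu, hQu⟩ := exists_value_perp S.h2 (S.nondeg l) (S.rank l) (hπmem l y) (hval l hl)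
      (-q - (q / (2 * Q (π l y))) * (q / (2 * Q (π l y))) * Q (π l y))
    refine core i l hil hi hl e b he he0 hee hb hb0 heb hvb 1 one_ne_zero u hu hvu q hq hQu ?_
    have hΔ : ((1 : F) / Q b) • b + ((1 : F) * 1 / (Q b * polar Q e (π i y))) • e - (2 : F) • π i y ∈ D i :=
      sub_mem (add_mem ((D i).smul_mem _ hb) ((D i).smul_mem _ he)) ((D i).smul_mem _ (hπmem i y))
    have h20 : (2 : F) ≠ 0 := S.h2
    have hβ : polar Q e (π i y) ≠ 0 := fun h => he0 (hbad i hi e he hee
      (by rw [polar_comm, hcomp i e he, polar_comm, h]))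
    have hql : q ≠ 0 := hfirst i hi e b he he0 hee hb hb0 heb hvb 1 one_ne_zero
    rw [polar_add_right, hrho i hi _ hΔ, hrho l hl _ (add_mem ((D l).smul_mem _ (hπmem l y)) hu),
      hcomp i _ hΔ, hcomp l _ (add_mem ((D l).smul_mem _ (hπmem l y)) hu), polar_sub_right, polar_add_right,
      polar_add_right, polar_smul_right, polar_smul_right, polar_smul_right, polar_smul_right, hvb, hvu,
      polar_comm Q (π i y) e, polar_self', polar_self']
    intro h
    refine mul_ne_zero hql (sub_ne_zero.2 hρ) ?_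
    have ha' := hval l hl
    simp only [smul_eq_mul] at h
    rw [hq] at h ⊢
    field_simp at h ⊢
    linear_combination h
  · push Not at hprop
    obtain ⟨l, hl, x, hx, hvx, hcx⟩ := hprop
    obtain ⟨i, hil, hi⟩ := S.exists_other l (hy.1 l)
    obtain ⟨e, b, he, he0, hee, hb, hb0, heb, hvb⟩ := hvec i hi
    have ha' := hval l hl
    have h20 : (2 : F) ≠ 0 := S.h2
    obtain ⟨n, hn⟩ : ∃ n : F → F, n = fun w => -(4 * Q (π i y) - w * w / Q b) -
        ((4 * Q (π i y) - w * w / Q b) / (2 * Q (π l y))) * ((4 * Q (π i y) - w * w / Q b) / (2 * Q (π l y))) *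
          Q (π l y) := ⟨_, rfl⟩
    -- a scalar for which the second step is not along the component
    obtain ⟨w, hw, hnw⟩ : ∃ w : F, w ≠ 0 ∧ n w ≠ 0 := by
      have hfac : ∀ w : F, n w = -((4 * Q (π i y) - w * w / Q b) *
          ((4 * (Q (π i y) + Q (π l y))) - w * w / Q b)) / (4 * Q (π l y)) := by
        intro w
        have : (4 : F) ≠ 0 := by rw [show (4 : F) = 2 * 2 by norm_num]; exact mul_ne_zero h20 h20
        rw [hn]; field_simp; ring
      have h4 : (4 : F) * Q (π l y) ≠ 0 := by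
        rw [show (4 : F) = 2 * 2 by norm_num]; exact mul_ne_zero (mul_ne_zero h20 h20) ha'
      have hfirst : ∀ w : F, w ≠ 0 → 4 * Q (π i y) - w * w / Q b ≠ 0 :=
        hfirst i hi e b he he0 hee hb hb0 heb hvb
      by_cases h1 : 4 * (Q (π i y) + Q (π l y)) - (1 : F) * 1 / Q b = 0
      · refine ⟨μ, hμ, ?_⟩
        rw [hfac]
        refine div_ne_zero (neg_ne_zero.2 (mul_ne_zero (hfirst μ hμ) fun h => hμ1 ?_)) h4
        field_simp at h h1
        linear_combination h1 - h
      · refine ⟨1, one_ne_zero, ?_⟩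
        rw [hfac]
        exact div_ne_zero (neg_ne_zero.2 (mul_ne_zero (hfirst 1 one_ne_zero) h1)) h4
    obtain ⟨u₀, hu₀, hvu₀, hQu₀⟩ := exists_value_perp S.h2 (S.nondeg l) (S.rank l) (hπmem l y) ha' (n w)
    obtain ⟨u, hu, hvu, hQu, hcu⟩ : ∃ u ∈ D l, polar Q (π l y) u = 0 ∧ Q u = n w ∧ polar Q c u ≠ 0 := by
      by_cases hcu₀ : polar Q c u₀ = 0
      swap
      · exact ⟨u₀, hu₀, hvu₀, hQu₀, hcu₀⟩
      have h0 : Q u₀ ≠ 0 := hQu₀ ▸ hnw
      obtain ⟨x', hx', hvx', hcx', hxu⟩ : ∃ x' ∈ D l, polar Q (π l y) x' = 0 ∧ polar Q c x' ≠ 0 ∧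
          polar Q x' u₀ ≠ 0 := by
        by_cases hxu : polar Q x u₀ = 0
        · exact ⟨x + u₀, add_mem hx hu₀, by rw [polar_add_right, hvx, hvu₀, add_zero],
            by rw [polar_add_right, hcu₀, add_zero]; exact hcx,
            by rw [polar_add_left, hxu, zero_add, polar_self']; exact mul_ne_zero h20 h0⟩
        · exact ⟨x, hx, hvx, hcx, hxu⟩
      have hQx : Q x' ≠ 0 := fun h => hcx' (by
        rw [hbad l hl x' hx' h (by rw [polar_comm, hcomp l x' hx', hvx']), polar_zero_right])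
      refine ⟨refl Q x' hQx u₀, by rw [refl_apply]; exact sub_mem hu₀ ((D l).smul_mem _ hx'), ?_, ?_, ?_⟩
      · rw [refl_apply, polar_sub_right, polar_smul_right, hvu₀, hvx', smul_zero, sub_zero]
      · rw [refl_mem_isom hQx u₀, hQu₀]
      · rw [refl_apply, polar_sub_right, polar_smul_right, hcu₀, zero_sub, smul_eq_mul, polar_comm Q u₀ x']
        exact neg_ne_zero.2 (mul_ne_zero (mul_ne_zero (inv_ne_zero hQx) hxu) hcx')
    set q := 4 * Q (π i y) - w * w / Q b with hq
    set base := (w / Q b) • b + (w * w / (Q b * polar Q e (π i y))) • e - (2 : F) • π i y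
    set vl := (q / (2 * Q (π l y))) • π l y
    by_cases hplus : polar Q c (base + (vl + u)) = 0
    · refine core i l hil hi hl e b he he0 hee hb hb0 heb hvb w hw (-u) (neg_mem hu)
        (by rw [polar_neg_right, hvu, neg_zero]) q hq (by rw [QuadraticMap.map_neg, hQu, hn]) fun h => ?_
      rw [polar_add_right, polar_add_right] at hplus h
      rw [polar_neg_right] at h
      exact mul_ne_zero h20 hcu (by linear_combination hplus - h)
    · exact core i l hil hi hl e b he he0 hee hb hb0 heb hvb w hw u hu hvu q hq (by rw [hQu, hn]) hplus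

end CfsgLib.OrthBlock
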