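import Cfsg.Agent.OrthBlock.Axis

/-!
A mixed centre whose component in some member is orthogonal to a singular vector of that member.
-/

set_option autoImplicit false
set_option linter.unusedSectionVars false

open QuadraticMap

namespace CfsgLib.OrthBlock

open Matrix CfsgLib.GeoFull CfsgLib.Forms CfsgLib.GeoOrth

variable {ι : Type} [Fintype ι] [DecidableEq ι] {F : Type*} [Field F] [Finite F]
  {Q : QuadraticForm F (ι → F)} {t k : ℕ} {D : Fin t → Submodule F (ι → F)} {M : Subgroup (GL ι F)}

/-- The image of a singular vector of a member under an element of `M`, outside of all members. -/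
def IsMixed (Q : QuadraticForm F (ι → F)) (D : Fin t → Submodule F (ι → F)) (M : Subgroup (GL ι F))
    (y : ι → F) : Prop :=
  (∀ j, y ∉ D j) ∧ ∃ g ∈ M, ∃ a, ∃ e ∈ D a, e ≠ 0 ∧ Q e = 0 ∧ (g : Matrix ι ι F) *ᵥ e = y

variable (S : Setup Q D k M)
include S

theorem Setup.mixed_singular {y : ι → F} (hy : IsMixed Q D M y) : Q y = 0 := by
  obtain ⟨-, g, hg, a, e, -, -, hee, rfl⟩ := hy
  rw [(polar_omega (S.M_le hg)).1, hee]

theorem Setup.axis_image {g : GL ι F} (hg : g ∈ M) {a : Fin t} {e b : ι → F} (he : e ∈ D a) (hee : Q e = 0)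
    (hb : b ∈ D a) (heb : polar Q e b = 0) :
    Axis Q M ((g : Matrix ι ι F) *ᵥ e) ((g : Matrix ι ι F) *ᵥ b) :=
  S.axis_map hg (S.axis_member he hb hee heb)

theorem Setup.exists_axis_aniso {y : ι → F} (hy : IsMixed Q D M y) : ∃ c, Axis Q M y c ∧ Q c ≠ 0 := by
  obtain ⟨-, g, hg, a, e, he, he0, hee, rfl⟩ := hy
  obtain ⟨b, hb, heb, hb0⟩ := exists_aniso_perp S.h2 (S.nondeg a) (S.rank a) he he0 hee
  exact ⟨_, S.axis_image hg he hee hb heb, by rw [(polar_omega (S.M_le hg)).1]; exact hb0⟩

/-- The component of `y` in `D j` is seen by some vector orthogonal to a singular `e ⊥ y`. -/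
theorem Setup.omega_le_of_good (hbig : 5 ≤ k ∨ 5 ≤ Nat.card F) {y : ι → F} (hy : IsMixed Q D M y) {j : Fin t}
    {e x : ι → F} (he : e ∈ D j) (he0 : e ≠ 0) (hee : Q e = 0) (hey : polar Q e y = 0) (hx : x ∈ D j)
    (hex : polar Q e x = 0) (hyx : polar Q y x ≠ 0) : Cfsg.Geo.omegaGL ⇑Q ≤ M := by
  classical
  have hys := S.mixed_singular hy
  obtain ⟨b, hb, heb, hyb, hb0⟩ := exists_aniso_seen S.h2 (S.nondeg j) (S.rank j) he he0 hee hx hex hyx
  set α := polar Q y b with hα
  obtain ⟨l, hlj, hl⟩ := S.exists_other j (hy.1 j)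
  by_cases hA : ∃ c, Axis Q M y c ∧ polar Q e c ≠ 0 ∧ Q c ≠ Q b / (α * α)
  · -- a conjugate of an axis has centre `e`
    obtain ⟨c, hc, hβ, hκ⟩ := hA
    set β := polar Q e c with hβ'
    set s := -(α * β)⁻¹ with hs
    obtain ⟨h, hh, hhv⟩ := S.exists_elt hee (S.axis_member he ((D j).smul_mem s hb) hee
      (by rw [polar_smul_right, heb, smul_zero]))
    obtain ⟨T, hT, hTv⟩ := S.exists_elt hys hc
    have hsα : s * α * β = -1 := by rw [hs]; field_simp
    have h1 := S.axis_map hT (S.axis_map hh hc)
    set cc := (h : Matrix ι ι F) *ᵥ c with hcc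
    have hcc' : cc = c + (polar Q (s • b) c - Q (s • b) * β) • e - β • (s • b) := hhv c
    have ey : (h : Matrix ι ι F) *ᵥ y = y + (s * α) • e := by
      rw [hhv, hey, polar_smul_left, polar_comm Q b y, ← hα, smul_eq_mul]; simp
    have e1 : (T : Matrix ι ι F) *ᵥ ((h : Matrix ι ι F) *ᵥ y) = (s * α) • e := by
      rw [ey, hTv, polar_add_right, polar_add_right, polar_smul_right, polar_smul_right, polar_self', hys,
        polar_comm Q y e, hey, polar_comm Q c y, hc.1, polar_comm Q c e, ← hβ', smul_eq_mul, hsα]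
      module
    rw [e1] at h1
    refine S.omega_le_of_member_centre hlj he he0 hee (Axis.of_smul (left_ne_zero_of_mul
      (show s * α * β ≠ 0 by rw [hsα]; exact neg_ne_zero.2 one_ne_zero)) h1) fun hall => hl fun z hz => ?_
    have hzT := hall z hz
    have hez : polar Q e z = 0 := S.orth hlj.symm he hz
    have hbz : polar Q b z = 0 := S.orth hlj.symm hb hz
    have hycc : polar Q y cc = 1 := by
      rw [hcc', polar_sub_right, polar_add_right, polar_smul_right, polar_smul_right, polar_smul_right, hc.1,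
        polar_comm Q y e, hey, ← hα]
      simp only [smul_eq_mul, mul_zero, add_zero, zero_sub]
      linear_combination (-1 : F) * hsα
    have hccc : polar Q c cc = 2 * Q c - Q b / (α * α) := by
      rw [hcc', polar_sub_right, polar_add_right, polar_smul_right, polar_smul_right, polar_smul_right, polar_self',
        polar_smul_left, QuadraticMap.map_smul, polar_comm Q c e, ← hβ', polar_comm Q b c]
      simp only [smul_eq_mul]
      rw [hs]; field_simp; ring
    have hcz : polar Q cc z = polar Q c z := by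
      simp [hcc', polar_sub_left, polar_add_left, polar_smul_left, hez, hbz]
    rw [hTv, polar_sub_left, polar_add_left, polar_smul_left, polar_smul_left, hycc, hccc, hcz] at hzT
    have : (Q c - Q b / (α * α)) * polar Q y z = 0 := by
      simp only [smul_eq_mul] at hzT
      linear_combination hzT
    exact (mul_eq_zero.1 this).resolve_left (sub_ne_zero.2 hκ)
  · push Not at hA
    obtain ⟨-, g, hg, a, e₀, he₀, he₀0, hee₀, rfl⟩ := hy
    -- an anisotropic axis orthogonal to `e`
    obtain ⟨u, hu, heu, hu0, huφ⟩ : ∃ u ∈ D a, polar Q e₀ u = 0 ∧ Q u ≠ 0 ∧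
        polar Q e ((g : Matrix ι ι F) *ᵥ u) = 0 := by
      by_contra hall
      push Not at hall
      have hcon : ∀ u ∈ D a, polar Q e₀ u = 0 → polar Q e ((g : Matrix ι ι F) *ᵥ u) ≠ 0 →
          Q u = Q b / (α * α) := fun u hu heu hφ => by
        rw [← (polar_omega (S.M_le hg)).1 u]; exact hA _ (S.axis_image hg he₀ hee₀ hu heu) hφ
      obtain ⟨u₁, hu₁, heu₁, hu₁0⟩ := exists_aniso_perp S.h2 (S.nondeg a) (S.rank a) he₀ he₀0 hee₀
      have hφ₁ := hall u₁ hu₁ heu₁ hu₁0
      have hκ₁ := hcon u₁ hu₁ heu₁ hφ₁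
      rcases lt_or_ge (Nat.card F) 5 with hF | hF
      · -- few scalars: the kernel would be a large totally singular space
        have hk5 : 5 ≤ k := hbig.resolve_right (not_le.2 hF)
        let Φ : D a →ₗ[F] F × F := ((polarBilin Q e₀).comp (D a).subtype).prod
          (((polarBilin Q e).comp (Matrix.toLin' (g : Matrix ι ι F))).comp (D a).subtype)
        have h1 := Φ.finrank_range_add_finrank_ker
        have h3 := Submodule.finrank_le (LinearMap.range Φ)
        rw [Module.finrank_prod, Module.finrank_self] at h3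
        rw [S.hD.decomp.decomp.finrank_eq a] at h1
        set N := (LinearMap.ker Φ).map (D a).subtype
        have hN : Module.finrank F N = Module.finrank F (LinearMap.ker Φ) :=
          (Submodule.equivMapOfInjective _ (D a).injective_subtype _).finrank_eq.symm
        have hNQ : ∀ z ∈ N, Q z = 0 := by
          rintro _ ⟨z, hz, rfl⟩
          have hz' := LinearMap.mem_ker.1 hz
          have z1 : polar Q e₀ (z : ι → F) = 0 := congrArg Prod.fst hz'
          have z2 : polar Q e ((g : Matrix ι ι F) *ᵥ (z : ι → F)) = 0 := by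
            have h : (Φ z).2 = (0 : F) := congrArg Prod.snd hz'
            simpa [Φ] using h
          have p1 := hcon _ (add_mem hu₁ z.2) (by rw [polar_add_right, heu₁, z1, add_zero])
            (by rw [Matrix.mulVec_add, polar_add_right, z2, add_zero]; exact hφ₁)
          have p2 := hcon _ (sub_mem hu₁ z.2) (by rw [polar_sub_right, heu₁, z1, sub_zero])
            (by rw [Matrix.mulVec_sub, polar_sub_right, z2, sub_zero]; exact hφ₁)
          rw [QuadraticMap.map_add (⇑Q), hκ₁] at p1
          rw [CfsgLib.Forms.map_sub', hκ₁] at p2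
          have : 2 * Q (z : ι → F) = 0 := by linear_combination p1 + p2
          exact (mul_eq_zero.1 this).resolve_left S.h2
        have h4 := two_finrank_le S.hQ (S.nondeg a) (S := N) (Submodule.map_subtype_le _ _) hNQ
        rw [S.hD.decomp.decomp.finrank_eq a] at h4
        omega
      · obtain ⟨μ, hμ, hμ1⟩ := exists_sq_ne_one hF
        have h3 := hcon (μ • u₁) ((D a).smul_mem _ hu₁) (by rw [polar_smul_right, heu₁, smul_zero])
          (by rw [Matrix.mulVec_smul, polar_smul_right]; exact smul_ne_zero hμ hφ₁)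
        rw [QuadraticMap.map_smul, smul_eq_mul] at h3
        have : (μ * μ - 1) * Q u₁ = 0 := by linear_combination h3 - hκ₁
        exact hu₁0 ((mul_eq_zero.1 this).resolve_left (sub_ne_zero.2 hμ1))
    obtain ⟨h, hh, hhv⟩ := S.exists_elt hee (S.axis_member he hb hee heb)
    refine S.omega_le_of_commute (j := j) hys ?_ (S.axis_image hg he₀ hee₀ hu heu)
      (by rw [(polar_omega (S.M_le hg)).1]; exact hu0) he he0 hee hey huφ hh (α := α)
      (r := polar Q b ((g : Matrix ι ι F) *ᵥ u)) hyb ?_ ?_
    · intro hm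
      exact hl fun z hz => S.orth hlj.symm hm hz
    · rw [hhv, hey, polar_comm Q b ((g : Matrix ι ι F) *ᵥ e₀), ← hα]; simp
    · rw [hhv, huφ]; simp

/-- The component of `y` in `D j` is singular and there are enough scalars. -/
theorem Setup.omega_le_of_singular_component (hF : 5 ≤ Nat.card F) {y : ι → F} (hy : IsMixed Q D M y) {j : Fin t}
    {e : ι → F} (he : e ∈ D j) (he0 : e ≠ 0) (hee : Q e = 0) (hye : ∀ x ∈ D j, polar Q y x = polar Q e x) :
    Cfsg.Geo.omegaGL ⇑Q ≤ M := by
  classical
  have hys := S.mixed_singular hy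
  obtain ⟨f, hf, hff, hef⟩ := exists_hyp_partner (S.nondeg j) he he0 hee
  obtain ⟨μ, hμ, hμ1⟩ := exists_sq_ne_one hF
  have hey : polar Q e y = 0 := by rw [polar_comm, hye e he, polar_self', hee, mul_zero]
  have hyf : polar Q y f = 1 := by rw [hye f hf, hef]
  set σ := μ * μ with hσ
  have hσ0 : σ ≠ 0 := mul_ne_zero hμ hμ
  -- the torus element
  set w := e - f
  set u := μ⁻¹ • (e - σ • f)
  have hw : Q w = -1 := by rw [CfsgLib.Forms.map_sub', hee, hff, hef]; ring
  have hu : Q u = -1 := by
    rw [QuadraticMap.map_smul, CfsgLib.Forms.map_sub', QuadraticMap.map_smul, polar_smul_right, hee, hff, hef]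
    simp only [smul_eq_mul, hσ]; field_simp; ring
  have hw0 : Q w ≠ 0 := by rw [hw]; exact neg_ne_zero.2 one_ne_zero
  obtain ⟨h, hhΩ, hhv⟩ := exists_pair S.hQ hw0 (u := u) (hu.trans hw.symm)
  have hwj : w ∈ D j := sub_mem he hf
  have huj : u ∈ D j := (D j).smul_mem _ (sub_mem he ((D j).smul_mem _ hf))
  have hform : ∀ x, (h : Matrix ι ι F) *ᵥ x = x + ((σ - 1) * polar Q x f) • e + ((σ⁻¹ - 1) * polar Q x e) • f := by
    intro x
    rw [hhv, refl_apply, refl_apply]
    simp only [polar_sub_right, polar_sub_left, polar_smul_right, polar_smul_left, hw, hu, u, w, polar_self', hee, hff,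
      hef, polar_comm Q f e, smul_eq_mul]
    match_scalars <;> simp only [hσ] <;> field_simp <;> ring
  have hh : h ∈ M := S.le_M ⟨CfsgLib.GeoDecomp.mem_stabilizer S.hD.decomp.decomp fun i => ⟨i, fun x hx => by
    rw [hform]
    rcases eq_or_ne i j with rfl | hij
    · exact add_mem (add_mem hx ((D i).smul_mem _ he)) ((D i).smul_mem _ hf)
    · rw [S.orth hij hx he, S.orth hij hx hf]; simpa using hx⟩, hhΩ⟩
  have ey : (h : Matrix ι ι F) *ᵥ y = y + (σ - 1) • e := by
    rw [hform, hyf, polar_comm Q y e, hey]; simp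
  have hσ1 : σ - 1 ≠ 0 := sub_ne_zero.2 hμ1
  obtain ⟨l, hlj, hl⟩ := S.exists_other j (hy.1 j)
  by_cases hA : ∃ c, Axis Q M y c ∧ polar Q e c ≠ 0
  · obtain ⟨c₁, hc₁, hβ⟩ := hA
    obtain ⟨c, hc, hec⟩ : ∃ c, Axis Q M y c ∧ (σ - 1) * polar Q e c = -1 :=
      ⟨_, hc₁.smul (-((σ - 1) * polar Q e c₁)⁻¹), by rw [polar_smul_right, smul_eq_mul]; field_simp⟩
    obtain ⟨T, hT, hTv⟩ := S.exists_elt hys hc
    have h1 := S.axis_map hT (S.axis_map hh hc)
    set cc := (h : Matrix ι ι F) *ᵥ c with hcc
    have hcc' : cc = c + ((σ - 1) * polar Q c f) • e + ((σ⁻¹ - 1) * polar Q c e) • f := hform c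
    have e1 : (T : Matrix ι ι F) *ᵥ ((h : Matrix ι ι F) *ᵥ y) = (σ - 1) • e := by
      rw [ey, hTv, polar_add_right, polar_add_right, polar_smul_right, polar_smul_right, polar_self', hys,
        polar_comm Q y e, hey, polar_comm Q c y, hc.1, polar_comm Q c e, smul_eq_mul, hec]
      module
    rw [e1] at h1
    have hv := Axis.of_smul hσ1 h1
    obtain ⟨π, hπmem, hπsum, hπid, hπ0⟩ := CfsgLib.GeoDecomp.exists_proj S.hD.decomp.decomp
    by_cases hout : ∃ l, l ≠ j ∧ ¬ Orth Q (D l) ((T : Matrix ι ι F) *ᵥ cc)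
    · obtain ⟨l', hl', hne⟩ := hout
      exact S.omega_le_of_member_centre hl' he he0 hee hv hne
    push Not at hout
    exfalso
    have hycc : polar Q y cc = σ⁻¹ := by
      rw [hcc', polar_add_right, polar_add_right, polar_smul_right, polar_smul_right, hc.1, polar_comm Q y e, hey,
        hyf, polar_comm Q c e]
      simp only [smul_eq_mul]
      field_simp
      linear_combination (-1 : F) * hec
    set r := polar Q c cc - Q c * σ⁻¹
    have hkill : ∀ l, l ≠ j → ∀ x ∈ D l, polar Q ((1 - σ⁻¹) • c + r • y) x = 0 := by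
      intro l hlj x hx
      have h0 := hout l hlj x hx
      rw [hTv, hycc, polar_sub_left, polar_add_left, polar_smul_left, polar_smul_left, hcc', polar_add_left,
        polar_add_left, polar_smul_left, polar_smul_left, S.orth hlj.symm he hx, S.orth hlj.symm hf hx, ← hcc'] at h0
      rw [polar_add_left, polar_smul_left, polar_smul_left]
      simp only [smul_eq_mul, mul_zero, add_zero] at h0 ⊢
      linear_combination h0
    set d := (1 - σ⁻¹) • c + r • y with hd
    have hdj : d ∈ D j := by
      by_contra hnot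
      obtain ⟨l', hl', hne⟩ := S.exists_other j hnot
      exact hne (hkill l' hl')
    have h0 : polar Q y d = 0 := by
      rw [hd, polar_add_right, polar_smul_right, polar_smul_right, hc.1, polar_self', hys]; simp
    rw [hye d hdj, hd, polar_add_right, polar_smul_right, polar_smul_right, hey, smul_zero, add_zero,
      smul_eq_mul] at h0
    rcases mul_eq_zero.1 h0 with h0 | h0
    · exact hσ1 (by field_simp at h0; linear_combination h0)
    · rw [h0, mul_zero] at hec; exact neg_ne_zero.2 one_ne_zero hec.symm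
  · push Not at hA
    obtain ⟨c, hc, hc0⟩ := S.exists_axis_aniso hy
    refine S.omega_le_of_commute (j := j) hys (hy.1 j) hc hc0 he he0 hee hey (hA c hc) hh hσ1 ey
      (r := (σ - 1) * polar Q c f) ?_
    rw [hform, polar_comm Q c e, hA c hc]; simp

end CfsgLib.OrthBlock
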