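import Cfsg.Agent.GeoLib.OmegaSplitMax
import Cfsg.Agent.GeoLib.Decomp

/-!
Vectors inside one non-degenerate subspace of dimension at least three.
-/

set_option autoImplicit false
set_option linter.unusedSectionVars false

open QuadraticMap

namespace CfsgLib.OrthBlock

open Matrix CfsgLib.GeoFull CfsgLib.Forms CfsgLib.GeoOrth

variable {ι : Type} [Fintype ι] [DecidableEq ι] {F : Type*} [Field F]
  {Q : QuadraticForm F (ι → F)} {W : Submodule F (ι → F)}

/-- `v` has no component in `W`. -/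
def Orth (Q : QuadraticForm F (ι → F)) (W : Submodule F (ι → F)) (v : ι → F) : Prop :=
  ∀ x ∈ W, polar Q v x = 0

theorem polar_self' (x : ι → F) : polar Q x x = 2 * Q x := by
  rw [polar_self, nsmul_eq_mul, Nat.cast_ofNat]

theorem exists_polar_one (hW : Cfsg.Geo.IsNondegenerateOn (polar ⇑Q) W) {x : ι → F} (hx : x ∈ W) (hx0 : x ≠ 0) :
    ∃ y ∈ W, polar Q x y = 1 := by
  obtain ⟨y, hy, hxy⟩ := (hW x hx hx0).2
  exact ⟨(polar Q x y)⁻¹ • y, W.smul_mem _ hy, by rw [polar_smul_right, smul_eq_mul, inv_mul_cancel₀ hxy]⟩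

theorem exists_hyp_partner (hW : Cfsg.Geo.IsNondegenerateOn (polar ⇑Q) W) {e : ι → F} (he : e ∈ W) (he0 : e ≠ 0)
    (hee : Q e = 0) : ∃ f ∈ W, Q f = 0 ∧ polar Q e f = 1 := by
  obtain ⟨y, hy, hey⟩ := exists_polar_one hW he he0
  refine ⟨y + (-Q y) • e, add_mem hy (W.smul_mem _ he), ?_, ?_⟩
  · rw [map_add_smul, hee, polar_comm, hey]; ring
  · rw [polar_add_right, polar_smul_right, polar_self', hee, hey]; simp

/-- Removing a hyperbolic pair. -/
theorem hyp_residue {e f : ι → F} (he : e ∈ W) (hf : f ∈ W) (hee : Q e = 0) (hff : Q f = 0)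
    (hef : polar Q e f = 1) (x : ι → F) :
    polar Q (x - polar Q x f • e - polar Q x e • f) e = 0 ∧
      polar Q (x - polar Q x f • e - polar Q x e • f) f = 0 ∧
        (x ∈ W → x - polar Q x f • e - polar Q x e • f ∈ W) := by
  refine ⟨?_, ?_, fun hx => sub_mem (sub_mem hx (W.smul_mem _ he)) (W.smul_mem _ hf)⟩
  · simp [polar_sub_left, polar_smul_left, polar_self', hee, polar_comm Q f e, hef]
  · simp [polar_sub_left, polar_smul_left, polar_self', hff, hef]

theorem exists_aniso_perp_hyp [Finite F] (h2 : (2 : F) ≠ 0) (hW : Cfsg.Geo.IsNondegenerateOn (polar ⇑Q) W)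
    (hk : 3 ≤ Module.finrank F W) {e f : ι → F} (he : e ∈ W) (hf : f ∈ W) (hee : Q e = 0) (hff : Q f = 0)
    (hef : polar Q e f = 1) : ∃ b ∈ W, polar Q e b = 0 ∧ polar Q f b = 0 ∧ Q b ≠ 0 := by
  by_contra hall
  push Not at hall
  have hiso : ∀ b ∈ W, polar Q e b = 0 → polar Q f b = 0 → Q b = 0 := fun b hb h1 h2 => hall b hb h1 h2
  obtain ⟨x, hx, hxout⟩ : ∃ x ∈ W, x ∉ Submodule.span F ({e, f} : Set (ι → F)) := by
    by_contra h
    push Not at h
    have h1 := Submodule.finrank_mono (show W ≤ Submodule.span F ({e, f} : Set (ι → F)) from h)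
    have h2 := CfsgLib.GeoOrth.finrank_pair_le (F := F) e f
    omega
  obtain ⟨h1, h2', h3⟩ := hyp_residue he hf hee hff hef x
  set r := x - polar Q x f • e - polar Q x e • f with hr
  have hr0 : r ≠ 0 := fun h => hxout (by
    rw [show x = r + polar Q x f • e + polar Q x e • f by rw [hr]; abel, h, zero_add]
    exact add_mem (Submodule.smul_mem _ _ (Submodule.subset_span (by simp)))
      (Submodule.smul_mem _ _ (Submodule.subset_span (by simp))))
  obtain ⟨z, hz, hrz⟩ := exists_polar_one hW (h3 hx) hr0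
  obtain ⟨g1, g2, g3⟩ := hyp_residue he hf hee hff hef z
  set s := z - polar Q z f • e - polar Q z e • f with hs
  have hrs : polar Q r s = 1 := by
    simp [hs, polar_sub_right, polar_smul_right, hrz, h1, h2']
  have e1 := hiso r (h3 hx) (by rw [polar_comm]; exact h1) (by rw [polar_comm]; exact h2')
  have e2 := hiso s (g3 hz) (by rw [polar_comm]; exact g1) (by rw [polar_comm]; exact g2)
  have e3 := hiso (r + s) (add_mem (h3 hx) (g3 hz)) (by rw [polar_comm, polar_add_left, h1, g1, add_zero])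
    (by rw [polar_comm, polar_add_left, h2', g2, add_zero])
  rw [QuadraticMap.map_add (⇑Q), e1, e2, hrs] at e3
  exact h2 (by linear_combination 2 * e3)

theorem exists_aniso_perp [Finite F] (h2 : (2 : F) ≠ 0) (hW : Cfsg.Geo.IsNondegenerateOn (polar ⇑Q) W)
    (hk : 3 ≤ Module.finrank F W) {e : ι → F} (he : e ∈ W) (he0 : e ≠ 0) (hee : Q e = 0) :
    ∃ b ∈ W, polar Q e b = 0 ∧ Q b ≠ 0 := by
  obtain ⟨f, hf, hff, hef⟩ := exists_hyp_partner hW he he0 hee
  obtain ⟨b, hb, h1, -, h3⟩ := exists_aniso_perp_hyp h2 hW hk he hf hee hff hef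
  exact ⟨b, hb, h1, h3⟩

/-- An anisotropic vector orthogonal to `e` seen by `y`. -/
theorem exists_aniso_seen [Finite F] (h2 : (2 : F) ≠ 0) (hW : Cfsg.Geo.IsNondegenerateOn (polar ⇑Q) W)
    (hk : 3 ≤ Module.finrank F W) {e x y : ι → F} (he : e ∈ W) (he0 : e ≠ 0) (hee : Q e = 0) (hx : x ∈ W)
    (hex : polar Q e x = 0) (hyx : polar Q y x ≠ 0) :
    ∃ b ∈ W, polar Q e b = 0 ∧ polar Q y b ≠ 0 ∧ Q b ≠ 0 := by
  obtain ⟨b, hb, heb, hb0⟩ := exists_aniso_perp h2 hW hk he he0 hee
  by_cases hx0 : Q x = 0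
  swap
  · exact ⟨x, hx, hex, hyx, hx0⟩
  by_cases hyb : polar Q y b = 0
  swap
  · exact ⟨b, hb, heb, hyb, hb0⟩
  by_cases hp : Q (x + b) = 0
  swap
  · exact ⟨x + b, add_mem hx hb, by rw [polar_add_right, hex, heb, add_zero],
      by rw [polar_add_right, hyb, add_zero]; exact hyx, hp⟩
  refine ⟨x - b, sub_mem hx hb, by rw [polar_sub_right, hex, heb, sub_zero],
    by rw [polar_sub_right, hyb, sub_zero]; exact hyx, fun hm => ?_⟩
  rw [QuadraticMap.map_add (⇑Q), hx0] at hp
  rw [CfsgLib.Forms.map_sub', hx0] at hm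
  exact mul_ne_zero h2 hb0 (by linear_combination hp + hm)

/-- A singular vector not orthogonal to a vector with a component in `W`. -/
theorem exists_singular_seen [Finite F] (hW : Cfsg.Geo.IsNondegenerateOn (polar ⇑Q) W)
    (hk : 3 ≤ Module.finrank F W) {v : ι → F} (hv : ¬ Orth Q W v) :
    ∃ e ∈ W, e ≠ 0 ∧ Q e = 0 ∧ polar Q e v ≠ 0 := by
  obtain ⟨e, he, he0, hee⟩ := CfsgLib.Forms.exists_singular Q W hk
  obtain ⟨f, hf, hff, hef⟩ := exists_hyp_partner hW he he0 hee
  by_cases hev : polar Q e v = 0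
  swap
  · exact ⟨e, he, he0, hee, hev⟩
  by_cases hfv : polar Q f v = 0
  swap
  · exact ⟨f, hf, fun h => by rw [h, polar_zero_right] at hef; exact zero_ne_one hef, hff, hfv⟩
  simp only [Orth, not_forall] at hv
  obtain ⟨x, hx, hvx⟩ := hv
  obtain ⟨h1, h2, h3⟩ := hyp_residue he hf hee hff hef x
  set r := x - polar Q x f • e - polar Q x e • f with hr
  have hrv : polar Q r v ≠ 0 := by
    rw [hr, polar_sub_left, polar_sub_left, polar_smul_left, polar_smul_left, hev, hfv, smul_zero, smul_zero,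
      sub_zero, sub_zero, polar_comm]
    exact hvx
  have hz : polar Q (r + e + (-Q r) • f) v ≠ 0 := by
    rw [polar_add_left, polar_add_left, polar_smul_left, hev, hfv, smul_zero, add_zero, add_zero]
    exact hrv
  refine ⟨r + e + (-Q r) • f, add_mem (add_mem (h3 hx) he) (W.smul_mem _ hf), fun h => hz (by rw [h, polar_zero_left]),
    ?_, hz⟩
  rw [map_add_smul, QuadraticMap.map_add (⇑Q), hee, hff, h1, polar_add_left, h2, hef]
  ring

/-- An anisotropic vector has vectors of every value orthogonal to it. -/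
theorem exists_value_perp [Finite F] (h2 : (2 : F) ≠ 0) (hW : Cfsg.Geo.IsNondegenerateOn (polar ⇑Q) W)
    (hk : 3 ≤ Module.finrank F W) {v : ι → F} (hv : v ∈ W) (hv0 : Q v ≠ 0) (c : F) :
    ∃ u ∈ W, polar Q v u = 0 ∧ Q u = c := by
  have hker : ∀ x y : ι → F, ∃ z ∈ W, z ≠ 0 ∧ polar Q x z = 0 ∧ polar Q y z = 0 := by
    intro x y
    let Φ : W →ₗ[F] F × F := ((polarBilin Q x).comp W.subtype).prod ((polarBilin Q y).comp W.subtype)
    have : LinearMap.ker Φ ≠ ⊥ := LinearMap.ker_ne_bot_of_finrank_lt (by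
      rw [Module.finrank_prod, Module.finrank_self]; omega)
    obtain ⟨z, hz, hz0⟩ := Submodule.exists_mem_ne_zero_of_ne_bot this
    have hz' := LinearMap.mem_ker.1 hz
    exact ⟨z, z.2, fun h => hz0 (Subtype.ext h), congrArg Prod.fst hz', congrArg Prod.snd hz'⟩
  -- a singular orthogonal vector gives every value
  have hsing : ∀ d ∈ W, d ≠ 0 → Q d = 0 → polar Q v d = 0 → ∃ u ∈ W, polar Q v u = 0 ∧ Q u = c := by
    intro d hd hd0 hdd hvd
    obtain ⟨z, hz, hdz⟩ := exists_polar_one hW hd hd0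
    set z' := z - (polar Q v z / (2 * Q v)) • v with hz'
    have h1 : polar Q v z' = 0 := by
      rw [hz', polar_sub_right, polar_smul_right, polar_self', smul_eq_mul, div_mul_cancel₀ _ (mul_ne_zero h2 hv0),
        sub_self]
    have h3 : polar Q d z' = 1 := by
      rw [hz', polar_sub_right, polar_smul_right, polar_comm Q d v, hvd, hdz, smul_zero, sub_zero]
    refine ⟨z' + (c - Q z') • d, add_mem (sub_mem hz (W.smul_mem _ hv)) (W.smul_mem _ hd), ?_, ?_⟩
    · rw [polar_add_right, polar_smul_right, h1, hvd, smul_zero, add_zero]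
    · rw [map_add_smul, hdd, polar_comm, h3]; ring
  obtain ⟨b, hb, hb0, hvb, -⟩ := hker v v
  by_cases hbb : Q b = 0
  · exact hsing b hb hb0 hbb hvb
  obtain ⟨d, hd, hd0, hvd, hbd⟩ := hker v b
  by_cases hdd : Q d = 0
  · exact hsing d hd hd0 hdd hvd
  obtain ⟨s, r, hsr⟩ := exists_two_squares hbb hdd c
  refine ⟨s • b + r • d, add_mem (W.smul_mem _ hb) (W.smul_mem _ hd), ?_, ?_⟩
  · rw [polar_add_right, polar_smul_right, polar_smul_right, hvb, hvd, smul_zero, smul_zero, add_zero]
  · rw [QuadraticMap.map_add (⇑Q), QuadraticMap.map_smul, QuadraticMap.map_smul, polar_smul_left,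
      polar_smul_right, hbd]
    simp only [smul_eq_mul, mul_zero, add_zero]
    linear_combination hsr

/-- A totally singular subspace of `W` has at most half its dimension. -/
theorem two_finrank_le [Finite F] (hQ : (polarBilin Q).Nondegenerate) (hW : Cfsg.Geo.IsNondegenerateOn (polar ⇑Q) W)
    {S : Submodule F (ι → F)} (hS : S ≤ W) (hSQ : ∀ x ∈ S, Q x = 0) :
    2 * Module.finrank F S ≤ Module.finrank F W := by
  have hsp := exists_split hQ hW
  set U := perp Q W
  have horth : ∀ x ∈ S, ∀ y ∈ S, polar Q x y = 0 := fun x hx y hy => by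
    have := hSQ _ (add_mem hx hy)
    rw [QuadraticMap.map_add (⇑Q), hSQ x hx, hSQ y hy] at this
    linear_combination this
  have hle : S ⊔ U ≤ perp Q S := by
    refine sup_le (fun x hx => mem_perp.2 fun u hu => horth x hx u hu) fun x hx => mem_perp.2 fun u hu => ?_
    rw [polar_comm]; exact hsp.orth u (hS hu) x hx
  have hdis : S ⊓ U = ⊥ := le_bot_iff.1 ((inf_le_inf_right U hS).trans hsp.compl.disjoint.le_bot)
  have h1 := Submodule.finrank_sup_add_finrank_inf_eq S U
  have h3 := Submodule.finrank_mono hle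
  have h4 : Module.finrank F W + Module.finrank F U = Fintype.card ι := by
    rw [Submodule.finrank_add_eq_of_isCompl hsp.compl, Module.finrank_fintype_fun_eq_card]
  have h5 := Submodule.finrank_le S
  rw [hdis, finrank_bot, add_zero] at h1
  rw [finrank_perp hQ, Module.finrank_fintype_fun_eq_card] at h3
  rw [Module.finrank_fintype_fun_eq_card] at h5
  omega

theorem exists_sq_ne_one [Finite F] (h5 : 5 ≤ Nat.card F) : ∃ μ : F, μ ≠ 0 ∧ μ * μ ≠ 1 := by
  classical
  have := Fintype.ofFinite F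
  by_contra hall
  push Not at hall
  have hsub : (Finset.univ : Finset F) ⊆ {0, 1, -1} := fun x _ => by
    rcases eq_or_ne x 0 with rfl | hx
    · simp
    · rcases mul_self_eq_one_iff.1 (hall x hx) with rfl | rfl <;> simp
  have h := (Finset.card_le_card hsub).trans Finset.card_le_three
  rw [Finset.card_univ, ← Nat.card_eq_fintype_card] at h
  omega

end CfsgLib.OrthBlock
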