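import Cfsg.Agent.OrthBlock.Member

/-!
An element of `Ω` permuting two members and fixing a third one pointwise.
-/

set_option autoImplicit false
set_option linter.unusedSectionVars false

open QuadraticMap

namespace CfsgLib.OrthBlock

open Matrix CfsgLib.GeoFull CfsgLib.Forms CfsgLib.GeoOrth

variable {ι : Type} [Fintype ι] [DecidableEq ι] {F : Type*} [Field F] [Finite F]
  {Q : QuadraticForm F (ι → F)} {t k : ℕ} {D : Fin t → Submodule F (ι → F)}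

/-- The reflection as an element of the isometry group. -/
def rflI (Q : QuadraticForm F (ι → F)) (u : ι → F) (hu : Q u ≠ 0) : isom Q :=
  ⟨refl Q u hu, refl_mem_isom hu⟩

theorem rflI_apply_mem {W : Submodule F (ι → F)} {u : ι → F} (hu : Q u ≠ 0) (huW : u ∈ W) {x : ι → F} (hx : x ∈ W) :
    (rflI Q u hu : (ι → F) ≃ₗ[F] (ι → F)) x ∈ W := by
  show refl Q u hu x ∈ W
  rw [refl_apply]; exact sub_mem hx (W.smul_mem _ huW)

theorem rflI_apply_fix {u : ι → F} (hu : Q u ≠ 0) {x : ι → F} (hx : polar Q x u = 0) :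
    (rflI Q u hu : (ι → F) ≃ₗ[F] (ι → F)) x = x := by
  show refl Q u hu x = x
  rw [refl_apply, hx]; simp

theorem rflI_rflI {u : ι → F} (hu : Q u ≠ 0) (x : ι → F) :
    (rflI Q u hu : (ι → F) ≃ₗ[F] (ι → F)) ((rflI Q u hu : (ι → F) ≃ₗ[F] (ι → F)) x) = x :=
  reflL_reflL hu x

theorem exists_member_swap (hQ : (polarBilin Q).Nondegenerate) (h2 : (2 : F) ≠ 0)
    (hD : Cfsg.Geo.IsOrthogonalMDecomposition ⇑Q k D) (hk : 3 ≤ k) {j l r : Fin t} (hlr : l ≠ r) (hjl : j ≠ l)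
    (hjr : j ≠ r) :
    ∃ g : GL ι F, g ∈ Cfsg.Geo.decompositionStabilizer D ⊓ Cfsg.Geo.omegaGL ⇑Q ∧
      (∀ x ∈ D j, (g : Matrix ι ι F) *ᵥ x = x) ∧ ∀ x ∈ D r, ∃ z ∈ D l, (g : Matrix ι ι F) *ᵥ z = x := by
  classical
  have := Fintype.ofFinite F
  obtain ⟨π, hπmem, hπsum, hπid, hπ0⟩ := CfsgLib.GeoDecomp.exists_proj hD.decomp.decomp
  have horth : ∀ a b, a ≠ b → ∀ x ∈ D a, ∀ y ∈ D b, polar Q x y = 0 := hD.decomp.orthogonal
  obtain ⟨φ, hφ⟩ := hD.isometric l r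
  let p : ∀ a, (ι → F) →ₗ[F] D a := fun a => (π a).codRestrict (D a) (hπmem a)
  let L : (ι → F) →ₗ[F] (ι → F) := LinearMap.id - π l - π r +
    (D r).subtype ∘ₗ φ.toLinearMap ∘ₗ p l + (D l).subtype ∘ₗ φ.symm.toLinearMap ∘ₗ p r
  have hp : ∀ a, ∀ x (hx : x ∈ D a), p a x = ⟨x, hx⟩ := fun a x hx => Subtype.ext (hπid a x hx)
  have hp0 : ∀ a b, a ≠ b → ∀ x ∈ D b, p a x = 0 := fun a b h x hx => Subtype.ext (hπ0 a b h x hx)
  have hLl : ∀ x (hx : x ∈ D l), L x = (φ ⟨x, hx⟩ : ι → F) := fun x hx => by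
    simp [L, hπid l x hx, hπ0 r l hlr.symm x hx, hp l x hx, hp0 r l hlr.symm x hx]
  have hLr : ∀ x (hx : x ∈ D r), L x = (φ.symm ⟨x, hx⟩ : ι → F) := fun x hx => by
    simp [L, hπid r x hx, hπ0 l r hlr x hx, hp r x hx, hp0 l r hlr x hx]
  have hLo : ∀ a, a ≠ l → a ≠ r → ∀ x ∈ D a, L x = x := fun a h1 h3 x hx => by
    simp [L, hπ0 l a h1.symm x hx, hπ0 r a h3.symm x hx, hp0 l a h1.symm x hx, hp0 r a h3.symm x hx]
  have hto : ∀ a, ∀ x ∈ D a, L x ∈ D (Equiv.swap l r a) := by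
    intro a x hx
    rcases eq_or_ne a l with rfl | h1
    · rw [Equiv.swap_apply_left, hLl x hx]; exact Submodule.coe_mem _
    rcases eq_or_ne a r with rfl | h3
    · rw [Equiv.swap_apply_right, hLr x hx]; exact Submodule.coe_mem _
    rw [Equiv.swap_apply_of_ne_of_ne h1 h3, hLo a h1 h3 x hx]; exact hx
  have hLL : ∀ x, L (L x) = x := by
    intro x
    conv_lhs => rw [← hπsum x]
    simp only [map_sum]
    conv_rhs => rw [← hπsum x]
    refine Finset.sum_congr rfl fun a _ => ?_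
    rcases eq_or_ne a l with rfl | h1
    · rw [hLl _ (hπmem _ x), hLr _ (Submodule.coe_mem _)]; simp
    rcases eq_or_ne a r with rfl | h3
    · rw [hLr _ (hπmem _ x), hLl _ (Submodule.coe_mem _)]; simp
    rw [hLo a h1 h3 _ (hπmem a x), hLo a h1 h3 _ (hπmem a x)]
  have hQsum : ∀ x, Q x = ∑ a, Q (π a x) := by
    intro x
    have key : ∀ s : Finset (Fin t), Q (∑ a ∈ s, π a x) = ∑ a ∈ s, Q (π a x) := by
      intro s
      induction s using Finset.induction_on with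
      | empty => simp
      | insert a s ha ih =>
        rw [Finset.sum_insert ha, Finset.sum_insert ha, QuadraticMap.map_add (⇑Q), ih]
        suffices polar Q (π a x) (∑ b ∈ s, π b x) = 0 by rw [this, add_zero]
        rw [← polarBilin_apply_apply, map_sum]
        exact Finset.sum_eq_zero fun b hb => horth a b (fun h => ha (h ▸ hb)) _ (hπmem a x) _ (hπmem b x)
    conv_lhs => rw [← hπsum x]
    exact key Finset.univ
  have hπL : ∀ a x, π (Equiv.swap l r a) (L x) = L (π a x) := by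
    intro a x
    conv_lhs => rw [← hπsum x]
    rw [map_sum, map_sum, Finset.sum_eq_single a
      (fun b _ hb => hπ0 _ _ ((Equiv.swap l r).injective.ne hb.symm) _ (hto b _ (hπmem b x)))
      (fun h => absurd (Finset.mem_univ a) h), hπid _ _ (hto a _ (hπmem a x))]
  have hiso : ∀ x, Q (L x) = Q x := by
    intro x
    rw [hQsum (L x), hQsum x, ← Equiv.sum_comp (Equiv.swap l r) fun a => Q (π a (L x))]
    refine Finset.sum_congr rfl fun a _ => ?_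
    rw [hπL]
    rcases eq_or_ne a l with rfl | h1
    · rw [hLl _ (hπmem _ x), hφ]
    rcases eq_or_ne a r with rfl | h3
    · rw [hLr _ (hπmem _ x), ← hφ, LinearEquiv.apply_symm_apply]
    rw [hLo a h1 h3 _ (hπmem a x)]
  let Le : (ι → F) ≃ₗ[F] (ι → F) :=
    LinearEquiv.ofLinear L L (LinearMap.ext hLL) (LinearMap.ext hLL)
  let LI : isom Q := ⟨Le, hiso⟩
  have hW := hD.decomp.nondegenerate r
  have hkr : 3 ≤ Module.finrank F (D r) := by rw [hD.decomp.decomp.finrank_eq]; exact hk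
  obtain ⟨e, he, he0, hee⟩ := CfsgLib.Forms.exists_singular Q (D r) hkr
  obtain ⟨f, hf, hff, hef⟩ := exists_hyp_partner hW he he0 hee
  have hval : ∀ c : F, ∃ u ∈ D r, Q u = c := fun c =>
    ⟨e + c • f, add_mem he ((D r).smul_mem c hf), by rw [map_add_smul, hee, hff, hef]; ring⟩
  obtain ⟨ν, hν⟩ := FiniteField.exists_nonsquare (F := F) (fun h => h2 (by
    have := ringChar.eq_iff.1 h; exact CharTwo.two_eq_zero))
  obtain ⟨u₁, hu₁r, hu₁⟩ := hval 1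
  obtain ⟨u₂, hu₂r, hu₂⟩ := hval ν
  have h₁ : Q u₁ ≠ 0 := by rw [hu₁]; exact one_ne_zero
  have h₂ : Q u₂ ≠ 0 := by rw [hu₂]; exact fun h => hν (h ▸ IsSquare.zero)
  have s₁ : spin h2 hQ (rflI Q u₁ h₁) = 1 := by rw [rflI, spin_refl, hu₁, if_pos IsSquare.one]
  have s₂ : spin h2 hQ (rflI Q u₂ h₂) = -1 := by rw [rflI, spin_refl, hu₂, if_neg hν]
  have d₁ : detSign h2 hQ (rflI Q u₁ h₁) = -1 := detSign_refl h2 hQ h₁
  have d₂ : detSign h2 hQ (rflI Q u₂ h₂) = -1 := detSign_refl h2 hQ h₂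
  have hdim : 2 ≤ Module.finrank F (ι → F) := by
    have := Submodule.finrank_le (D r)
    omega
  -- a correction supported in `D r`
  obtain ⟨R, R', hRR, hRmem, hRmem', hRfix, hRd, hRs⟩ : ∃ R R' : isom Q,
      (∀ x, (R : (ι → F) ≃ₗ[F] (ι → F)) ((R' : (ι → F) ≃ₗ[F] (ι → F)) x) = x) ∧
      (∀ a, ∀ x ∈ D a, (R : (ι → F) ≃ₗ[F] (ι → F)) x ∈ D a) ∧
      (∀ x ∈ D r, (R' : (ι → F) ≃ₗ[F] (ι → F)) x ∈ D r) ∧
      (∀ a, a ≠ r → ∀ x ∈ D a, (R : (ι → F) ≃ₗ[F] (ι → F)) x = x) ∧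
      detSign h2 hQ R = detSign h2 hQ LI ∧ spin h2 hQ R = spin h2 hQ LI := by
    have hfix : ∀ (u : ι → F) (hu : Q u ≠ 0), u ∈ D r → ∀ a, a ≠ r → ∀ x ∈ D a,
        (rflI Q u hu : (ι → F) ≃ₗ[F] (ι → F)) x = x := fun u hu hur a ha x hx =>
      rflI_apply_fix hu (horth a r ha x hx u hur)
    have hmem : ∀ (u : ι → F) (hu : Q u ≠ 0), u ∈ D r → ∀ a, ∀ x ∈ D a,
        (rflI Q u hu : (ι → F) ≃ₗ[F] (ι → F)) x ∈ D a := fun u hu hur a x hx => by
      rcases eq_or_ne a r with rfl | ha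
      · exact rflI_apply_mem hu hur hx
      · rw [hfix u hu hur a ha x hx]; exact hx
    rcases Int.units_eq_one_or (detSign h2 hQ LI) with hd | hd <;>
      rcases Int.units_eq_one_or (spin h2 hQ LI) with hs | hs
    · exact ⟨rflI Q u₁ h₁ * rflI Q u₁ h₁, rflI Q u₁ h₁ * rflI Q u₁ h₁,
        fun x => by simp [rflI_rflI],
        fun a x hx => by simpa using hmem u₁ h₁ hu₁r a _ (hmem u₁ h₁ hu₁r a x hx),
        fun x hx => by simpa using hmem u₁ h₁ hu₁r r _ (hmem u₁ h₁ hu₁r r x hx),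
        fun a ha x hx => by simp [hfix u₁ h₁ hu₁r a ha x hx],
        by rw [map_mul, d₁, hd]; rfl, by rw [map_mul, s₁, hs]; rfl⟩
    · exact ⟨rflI Q u₁ h₁ * rflI Q u₂ h₂, rflI Q u₂ h₂ * rflI Q u₁ h₁,
        fun x => by simp [rflI_rflI],
        fun a x hx => by simpa using hmem u₁ h₁ hu₁r a _ (hmem u₂ h₂ hu₂r a x hx),
        fun x hx => by simpa using hmem u₂ h₂ hu₂r r _ (hmem u₁ h₁ hu₁r r x hx),
        fun a ha x hx => by simp [hfix u₂ h₂ hu₂r a ha x hx, hfix u₁ h₁ hu₁r a ha x hx],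
        by rw [map_mul, d₁, d₂, hd]; rfl, by rw [map_mul, s₁, s₂, hs]; rfl⟩
    · exact ⟨rflI Q u₁ h₁, rflI Q u₁ h₁, rflI_rflI h₁, hmem u₁ h₁ hu₁r, hmem u₁ h₁ hu₁r r,
        hfix u₁ h₁ hu₁r, by rw [d₁, hd], by rw [s₁, hs]⟩
    · exact ⟨rflI Q u₂ h₂, rflI Q u₂ h₂, rflI_rflI h₂, hmem u₂ h₂ hu₂r, hmem u₂ h₂ hu₂r r,
        hfix u₂ h₂ hu₂r, by rw [d₂, hd], by rw [s₂, hs]⟩
  have hE : R * LI ∈ commutator (isom Q) := by
    rw [mem_commutator_iff h2 hQ hdim]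
    exact ⟨by rw [map_mul, hRd, Int.units_mul_self], by rw [map_mul, hRs, Int.units_mul_self]⟩
  obtain ⟨g, hg, hgv⟩ := exists_omegaGL hE
  have hgv' : ∀ x, (g : Matrix ι ι F) *ᵥ x = (R : (ι → F) ≃ₗ[F] (ι → F)) (L x) := fun x => hgv x
  refine ⟨g, ⟨CfsgLib.GeoDecomp.mem_stabilizer hD.decomp.decomp fun a => ⟨Equiv.swap l r a, fun x hx => ?_⟩, hg⟩,
    fun x hx => ?_, fun x hx => ?_⟩
  · rw [hgv']; exact hRmem _ _ (hto a x hx)
  · rw [hgv', hLo j hjl hjr x hx, hRfix j hjr x hx]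
  · refine ⟨L ((R' : (ι → F) ≃ₗ[F] (ι → F)) x), ?_, ?_⟩
    · simpa using hto r _ (hRmem' x hx)
    · rw [hgv', hLL, hRR]

end CfsgLib.OrthBlock
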