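import Cfsg.Agent.OrthBlock.Bad

/-!
The stabiliser of an orthogonal decomposition into isometric members is maximal in `Ω` in odd characteristic,
for members of dimension at least five, or at least three over five or more scalars.
-/

set_option autoImplicit false
set_option linter.unusedSectionVars false

open QuadraticMap

namespace CfsgLib.OrthBlock

open Matrix CfsgLib.GeoFull CfsgLib.Forms CfsgLib.GeoOrth

variable {ι : Type} [Fintype ι] [DecidableEq ι] {F : Type*} [Field F] [Finite F]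
  {Q : QuadraticForm F (ι → F)} {t k : ℕ} {D : Fin t → Submodule F (ι → F)} {M : Subgroup (GL ι F)}

/-- An element outside the stabiliser moves some singular vector of a member out of all members. -/
theorem Setup.exists_mixed (S : Setup Q D k M) {g : GL ι F} (hg : g ∈ M)
    (hgn : g ∉ Cfsg.Geo.decompositionStabilizer D) : ∃ y, IsMixed Q D M y := by
  obtain ⟨hgQ, hgB⟩ := polar_omega (S.M_le hg)
  by_contra hall
  push Not at hall
  have hs : ∀ a, ∀ e ∈ D a, e ≠ 0 → Q e = 0 → ∃ p, (g : Matrix ι ι F) *ᵥ e ∈ D p := fun a e he he0 hee => by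
    by_contra h
    push Not at h
    exact hall _ ⟨h, g, hg, a, e, he, he0, hee, rfl⟩
  refine hgn (CfsgLib.GeoDecomp.mem_stabilizer S.hD.decomp.decomp fun a => ?_)
  obtain ⟨e, he, he0, hee⟩ := CfsgLib.Forms.exists_singular Q (D a) (S.rank a)
  obtain ⟨f, hf, hff, hef⟩ := exists_hyp_partner (S.nondeg a) he he0 hee
  have hf0 : f ≠ 0 := fun h => by rw [h, polar_zero_right] at hef; exact zero_ne_one hef
  obtain ⟨p, hp⟩ := hs a e he he0 hee
  obtain ⟨p', hp'⟩ := hs a f hf hf0 hff
  have hpp : p' = p := by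
    by_contra h
    have := S.orth (Ne.symm h) hp hp'
    rw [hgB, hef] at this
    exact one_ne_zero this
  rw [hpp] at hp'
  -- singular vectors go to one member
  have hsing : ∀ z ∈ D a, Q z = 0 → (g : Matrix ι ι F) *ᵥ z ∈ D p := by
    intro z hz hzz
    rcases eq_or_ne z 0 with rfl | hz0
    · simp
    obtain ⟨r, hr⟩ := hs a z hz hz0 hzz
    rcases eq_or_ne r p with rfl | hrp
    · exact hr
    have hze : polar Q z e = 0 := by rw [← hgB]; exact S.orth hrp hr hp
    obtain ⟨s, hsm⟩ := hs a (z + e) (add_mem hz he)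
      (fun h => hz0 (mulVec_injective_of_isUnit g.isUnit (by
        show (g : Matrix ι ι F) *ᵥ z = (g : Matrix ι ι F) *ᵥ 0
        rw [Matrix.mulVec_zero]
        refine CfsgLib.GeoDecomp.eq_zero_of_mem S.hD.decomp.decomp hrp hr ?_
        rw [eq_neg_of_add_eq_zero_left h, Matrix.mulVec_neg]
        exact neg_mem hp)))
      (by rw [QuadraticMap.map_add (⇑Q), hzz, hee, hze]; ring)
    exfalso
    rw [Matrix.mulVec_add] at hsm
    rcases eq_or_ne s p with rfl | hsp
    · refine hz0 (mulVec_injective_of_isUnit g.isUnit ?_)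
      show (g : Matrix ι ι F) *ᵥ z = (g : Matrix ι ι F) *ᵥ 0
      rw [Matrix.mulVec_zero]
      exact CfsgLib.GeoDecomp.eq_zero_of_mem S.hD.decomp.decomp hrp hr ((Submodule.add_mem_iff_left _ hp).1 hsm)
    · have h1 := S.orth hsp hsm hp'
      rw [polar_add_left, S.orth hrp hr hp', hgB, hef, zero_add] at h1
      exact one_ne_zero h1
  refine ⟨p, fun x hx => ?_⟩
  obtain ⟨h1, h2, h3⟩ := hyp_residue he hf hee hff hef x
  set w := x - polar Q x f • e - polar Q x e • f with hw
  have hz : (g : Matrix ι ι F) *ᵥ (w + e + (-Q w) • f) ∈ D p := hsing _ (add_mem (add_mem (h3 hx) he)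
    ((D a).smul_mem _ hf)) (by
      rw [map_add_smul, QuadraticMap.map_add (⇑Q), hee, hff, h1, polar_add_left, h2, hef]; ring)
  rw [Matrix.mulVec_add, Matrix.mulVec_add, Matrix.mulVec_smul] at hz
  have hgw : (g : Matrix ι ι F) *ᵥ w ∈ D p :=
    (Submodule.add_mem_iff_left _ hp).1 ((Submodule.add_mem_iff_left _ ((D p).smul_mem _ hp')).1 hz)
  rw [show x = w + polar Q x f • e + polar Q x e • f by rw [hw]; abel, Matrix.mulVec_add, Matrix.mulVec_add,
    Matrix.mulVec_smul, Matrix.mulVec_smul]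
  exact add_mem (add_mem hgw ((D p).smul_mem _ hp)) ((D p).smul_mem _ hp')

theorem Setup.omega_le (S : Setup Q D k M) (hbig : 5 ≤ k ∨ 5 ≤ Nat.card F) {y : ι → F} (hy : IsMixed Q D M y) :
    Cfsg.Geo.omegaGL ⇑Q ≤ M := by
  by_cases hgood : ∃ j, ¬ Orth Q (D j) y ∧ ∃ e ∈ D j, e ≠ 0 ∧ Q e = 0 ∧ polar Q e y = 0
  · obtain ⟨j, hj, e, he, he0, hee, hey⟩ := hgood
    obtain ⟨f, hf, hff, hef⟩ := exists_hyp_partner (S.nondeg j) he he0 hee
    by_cases hx : ∃ x ∈ D j, polar Q e x = 0 ∧ polar Q y x ≠ 0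
    · obtain ⟨x, hx, hex, hyx⟩ := hx
      exact S.omega_le_of_good hbig hy he he0 hee hey hx hex hyx
    push Not at hx
    -- the component is a multiple of `e`
    have hprop : ∀ x ∈ D j, polar Q y x = polar Q y f * polar Q e x := by
      intro x hxj
      have := hx (x - polar Q e x • f) (sub_mem hxj ((D j).smul_mem _ hf))
        (by rw [polar_sub_right, polar_smul_right, hef, smul_eq_mul, mul_one, sub_self])
      rw [polar_sub_right, polar_smul_right, smul_eq_mul, sub_eq_zero] at this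
      rw [this, mul_comm]
    have hc : polar Q y f ≠ 0 := fun h => hj fun x hxj => by rw [hprop x hxj, h, zero_mul]
    by_cases hF : 5 ≤ Nat.card F
    · exact S.omega_le_of_singular_component hF hy ((D j).smul_mem (polar Q y f) he) (smul_ne_zero hc he0)
        (by rw [QuadraticMap.map_smul, hee, smul_zero])
        (fun x hxj => by rw [polar_smul_left, smul_eq_mul, hprop x hxj])
    have hk5 : 5 ≤ k := hbig.resolve_right hF
    -- a second singular vector
    let W' : Submodule F (ι → F) := D j ⊓ perp Q (Submodule.span F {e, f})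
    have h1 := Submodule.finrank_sup_add_finrank_inf_eq (D j) (perp Q (Submodule.span F {e, f}))
    have h3 := Submodule.finrank_le (D j ⊔ perp Q (Submodule.span F {e, f}))
    have h4 := CfsgLib.GeoOrth.finrank_pair_le (F := F) e f
    rw [finrank_perp S.hQ, S.hD.decomp.decomp.finrank_eq, Module.finrank_fintype_fun_eq_card] at h1
    rw [Module.finrank_fintype_fun_eq_card] at h3
    obtain ⟨e', he', he'0, he'e⟩ := CfsgLib.Forms.exists_singular Q W' (by
      show 3 ≤ Module.finrank F ↥(D j ⊓ perp Q (Submodule.span F {e, f}))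
      omega)
    obtain ⟨hp1, hp2⟩ := mem_perp_pair.1 he'.2
    exact S.omega_le_of_good hbig hy he'.1 he'0 he'e
      (by rw [polar_comm, hprop e' he'.1, polar_comm Q e e', hp1, mul_zero]) hf hp2 hc
  push Not at hgood
  by_cases hF : 5 ≤ Nat.card F
  · exact S.omega_le_of_bad hF hy fun j hj e he hee hey => by
      by_contra he0
      exact hgood j hj e he he0 hee hey
  -- large members: every component has a singular orthogonal vector
  exfalso
  obtain ⟨a, -⟩ : ∃ a : Fin t, True := ⟨⟨0, by have := S.hD.decomp.decomp.two_le; omega⟩, trivial⟩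
  obtain ⟨j, -, hj⟩ := S.exists_other a (hy.1 a)
  have hk5 : 5 ≤ k := hbig.resolve_right hF
  have h1 := Submodule.finrank_sup_add_finrank_inf_eq (D j) (perp Q (Submodule.span F {y}))
  have h3 := Submodule.finrank_le (D j ⊔ perp Q (Submodule.span F {y}))
  have h4 : Module.finrank F (Submodule.span F ({y} : Set (ι → F))) ≤ 1 :=
    (finrank_span_le_card _).trans (by simp)
  rw [finrank_perp S.hQ, S.hD.decomp.decomp.finrank_eq, Module.finrank_fintype_fun_eq_card] at h1
  rw [Module.finrank_fintype_fun_eq_card] at h3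
  obtain ⟨e, he, he0, hee⟩ := CfsgLib.Forms.exists_singular Q (D j ⊓ perp Q (Submodule.span F {y})) (by omega)
  exact hgood j hj e he.1 he0 hee (mem_perp.1 he.2 y (Submodule.mem_span_singleton_self y))

theorem stabilizer_ne (hQ : (polarBilin Q).Nondegenerate) (h5 : 5 ≤ Fintype.card ι) (h2 : (2 : F) ≠ 0)
    (hD : Cfsg.Geo.IsOrthogonalMDecomposition ⇑Q k D) (hk : 3 ≤ k) :
    ¬ Cfsg.Geo.omegaGL ⇑Q ≤ Cfsg.Geo.decompositionStabilizer D := by
  intro hle
  have horth := hD.decomp.orthogonal
  obtain ⟨a, b, hab⟩ : ∃ a b : Fin t, a ≠ b := by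
    have h2 := hD.decomp.decomp.two_le
    exact ⟨⟨0, by omega⟩, ⟨1, by omega⟩, fun h => by simp at h⟩
  have hr : ∀ i, 3 ≤ Module.finrank F (D i) := fun i => by rw [hD.decomp.decomp.finrank_eq]; exact hk
  obtain ⟨e, he, he0, hee⟩ := CfsgLib.Forms.exists_singular Q (D a) (hr a)
  obtain ⟨f, hf, hff, hef⟩ := exists_hyp_partner (hD.decomp.nondegenerate a) he he0 hee
  obtain ⟨e', he', he'0, he'e⟩ := CfsgLib.Forms.exists_singular Q (D b) (hr b)
  obtain ⟨v, hv, -, hv0⟩ := exists_aniso_perp h2 (hD.decomp.nondegenerate b) (hr b) he' he'0 he'e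
  have hev : polar Q e v = 0 := horth a b hab e he v hv
  obtain ⟨g, hg, hgv⟩ := exists_isSiegel hQ h5 hee hev
  obtain ⟨σ, hσ⟩ := hle hg
  have hgf : (g : Matrix ι ι F) *ᵥ f = f - Q v • e - v := by
    rw [hgv, hef, polar_comm Q v f, horth a b hab f hf v hv]; simp; abel
  have him : f - Q v • e - v ∈ D (σ a) := by
    rw [← hσ a, ← hgf]
    exact ⟨f, hf, Matrix.toLin'_apply _ _⟩
  rcases eq_or_ne (σ a) a with h | h
  · have := horth a b hab _ (h ▸ him) v hv
    rw [polar_sub_left, polar_sub_left, polar_smul_left, horth a b hab f hf v hv, hev, polar_self'] at this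
    exact mul_ne_zero h2 hv0 (by simp at this; tauto)
  · have := horth (σ a) a h _ him e he
    rw [polar_sub_left, polar_sub_left, polar_smul_left, polar_comm Q f e, hef, polar_self', hee,
      horth b a hab.symm v hv e he] at this
    simp at this

/-- **Maximality of the stabiliser of an orthogonal decomposition.** -/
theorem maximal_orthDecomp (hQ : (polarBilin Q).Nondegenerate) (h5 : 5 ≤ Fintype.card ι) (h2 : (2 : F) ≠ 0)
    (hD : Cfsg.Geo.IsOrthogonalMDecomposition ⇑Q k D) (hk : 3 ≤ k) (hbig : 5 ≤ k ∨ 5 ≤ Nat.card F) :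
    Cfsg.Geo.IsMaximalIn (Cfsg.Geo.omegaGL ⇑Q)
      (Cfsg.Geo.decompositionStabilizer D ⊓ Cfsg.Geo.omegaGL ⇑Q) := by
  refine ⟨lt_of_le_not_ge inf_le_right fun hle => stabilizer_ne hQ h5 h2 hD hk (hle.trans inf_le_left),
    fun M hGM hMS => ?_⟩
  by_cases hle : M ≤ Cfsg.Geo.decompositionStabilizer D
  · exact Or.inl (le_antisymm (le_inf hle hMS) hGM)
  refine Or.inr (le_antisymm hMS ?_)
  obtain ⟨g, hg, hgn⟩ := SetLike.not_le_iff_exists.1 hle
  have S : Setup Q D k M := ⟨hQ, h5, h2, hD, hk, hGM, hMS⟩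
  obtain ⟨y, hy⟩ := S.exists_mixed hg hgn
  exact S.omega_le hbig hy

end CfsgLib.OrthBlock
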